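import Cfsg.Agent.Lib.H9.MultCo0a
import Cfsg.Agent.Lib.H33.Leech1
import Cfsg.Agent.Lib.H91.LeechTools
import Cfsg.Agent.Lib.H16.NA1

/-! `Co₁` has nonabelian Sylow 2-subgroups. -/

set_option autoImplicit false

namespace H80.AbCo1

open Cfsg Finset H9.Leech H9.LeechGood H9.Trans H9.Cross H9.CoOrder H9.Co23 H9.Co1Out H9.Mult H9.MultCo0 H16.NA
open H8.GolayCode H8.GolayBasic H8.GolayCount H32.M24Kit H32.Octad H32.M24Ext

theorem exists_sep : ∃ a ∈ octads, none ∈ a ∧ (some 0 : GolayPt) ∉ a := by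
  have h1 := o0_mem
  obtain ⟨b, hb⟩ := exists_off h1
  obtain ⟨a, ha⟩ := Finset.card_pos.1 (show 0 < (fs o0).card by rw [h1.2]; norm_num)
  have hab : a ≠ b := fun h => hb (h ▸ ha)
  obtain ⟨σ, hσ, hm⟩ := H33.Leech1.trans_list [a, b] [none, some 0] (by simpa using hab) (by simp) rfl (by simp)
  simp only [List.map_cons, List.map_nil, List.cons.injEq, and_true] at hm
  have hO : (fs o0).image σ ∈ octads := (image_mem_octads hσ).2 h1
  refine ⟨_, hO, by rw [← hm.1]; exact Finset.mem_image_of_mem _ ha, ?_⟩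
  rw [← hm.2]
  intro h
  obtain ⟨c, hc, hcb⟩ := Finset.mem_image.1 h
  exact hb (σ.injective hcb ▸ hc)

theorem e8_ne (p : GolayPt) : e8 p ≠ -e8 p := by
  intro h
  have h1 := congrFun (congrArg (Subtype.val) h) p
  have h2 : ((e8 p : leechLattice) : GolayPt → ℤ) p = 8 := by
    show (Pi.single p 8 : GolayPt → ℤ) p = 8
    simp
  have h3 : ((-e8 p : leechLattice) : GolayPt → ℤ) p = -8 := by
    show -((e8 p : leechLattice) : GolayPt → ℤ) p = -8
    rw [h2]
  rw [h2, h3] at h1
  norm_num at h1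

theorem notAbS {K : Type*} [Group K] [Finite K] (hK : Cfsg.Spor.IsoCo1 K) (h : AbS K) : False := by
  obtain ⟨e⟩ := hK
  have : Finite Spor.Co1 := Finite.of_equiv K e.toEquiv
  have h' : AbS Spor.Co1 := h.of_equiv e.symm
  obtain ⟨a, ha, h0, h1⟩ := exists_sep
  have haG : a ∈ GS := ha.1
  let τ : M24 := ⟨projInv, H8.M24Mem.γ_mem⟩
  let π : Co0 →* Spor.Co1 := QuotientGroup.mk' (Subgroup.center Co0)
  have hτ : permHom τ * permHom τ = 1 := by
    rw [← map_mul]
    have : τ * τ = 1 := by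
      apply Subtype.ext
      show projInv * projInv = 1
      decide
    rw [this, map_one]
  have hb : a.image projInv ∈ GS := (image_mem_GS H8.M24Mem.γ_mem).2 haG
  have hconj := sg_conj τ haG
  have hc := comm_of_conj_comm h' (x := π (permHom τ)) (y := π (sg a)) (l := 1) (by
    rw [pow_two, ← map_mul, hτ, map_one]) (by
    rw [pow_one, pow_two, ← map_mul, sg_sq haG, map_one]) (by
    rw [← map_inv, ← map_mul, ← map_mul, hconj, ← map_mul, ← map_mul, sg_comm hb haG])
  have h2 : π (permHom τ * sg a * (permHom τ)⁻¹ * (sg a)⁻¹) = 1 := by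
    rw [map_mul, map_mul, map_mul, hc, map_inv, map_inv]; group
  rw [hconj] at h2
  have h3 : sg (a.image projInv) * (sg a)⁻¹ ∈ Subgroup.center Co0 := (QuotientGroup.eq_one_iff _).1 h2
  have h4 : (sg a)⁻¹ = sg a := inv_eq_of_mul_eq_one_right (sg_sq haG)
  rw [h4, sg_mul hb haG, H91.LeechTools.mem_center_iff] at h3
  have hsd := symmDiff_mem hb haG
  have hmem : some 0 ∈ symmDiff (a.image projInv) a := by
    rw [Finset.mem_symmDiff]
    exact Or.inl ⟨Finset.mem_image.2 ⟨none, h0, rfl⟩, h1⟩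
  obtain ⟨q, hq⟩ : ∃ q, q ∉ a.image projInv ∪ a := by
    by_contra hcon
    push Not at hcon
    have h5 : a.image projInv ∪ a = univ := eq_univ_of_forall hcon
    have h6 := Finset.card_union_le (a.image projInv) a
    rw [h5, Finset.card_univ, card_pt] at h6
    have h7 : (a.image projInv).card ≤ a.card := Finset.card_image_le
    have h8 : a.card = 8 := ha.2
    omega
  have hqn : q ∉ symmDiff (a.image projInv) a := by
    rw [Finset.mem_union, not_or] at hq
    rw [Finset.mem_symmDiff]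
    tauto
  rcases h3 with h3 | h3
  · have h5 := sg_e8 hsd (some 0)
    rw [h3, if_pos hmem, one_smul] at h5
    exact e8_ne _ h5
  · have h5 := sg_e8 hsd q
    rw [h3, if_neg hqn, H91.LeechTools.neg_smul] at h5
    exact e8_ne _ h5.symm

end H80.AbCo1
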