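import Cfsg.Agent.Lib.H80.GT
import Cfsg.Agent.Lib.H80.GP
import Cfsg.Agent.Lib.H26.PxQ

set_option autoImplicit false
set_option linter.unusedSectionVars false
set_option linter.unusedVariables false

/-!
# Block idempotents of normalizers of chains
-/

namespace H80.GU

open MonoidAlgebra H80.GA H80.GB H80.GC H80.GD H80.GE H80.GG H80.GH H80.GP
open scoped Pointwise

variable {G : Type*} [Group G] [Finite G] {p : ℕ} [Fact p.Prime]

/-- a `p'`-element normalizing a chain and centralizing its normalizer part -/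
lemma chain_cent {m : ℕ} {Q : Fin (m + 1) → Subgroup G} (hQ : StrictMono Q)
    (hQp : ∀ i, IsPGroup p (Q i)) {N : Subgroup G}
    (hN : ∀ g : G, g ∈ N ↔ ∀ i, g ∈ Subgroup.normalizer (Q i : Set G)) {x : G} (hx : x ∈ N)
    (hxp : ¬ p ∣ orderOf x)
    (hc : x ∈ Subgroup.centralizer ((Q (Fin.last m) ⊓ N : Subgroup G) : Set G)) :
    ∀ i, x ∈ Subgroup.centralizer (Q i : Set G) := by
  have hord : ∀ q ∈ Subgroup.zpowers x, (orderOf q).Coprime p := by
    intro q hq
    rw [Nat.coprime_comm, Nat.Prime.coprime_iff_not_dvd Fact.out]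
    intro h
    exact hxp (h.trans (orderOf_dvd_of_mem_zpowers hq))
  have hcz : ∀ U : Subgroup G, x ∈ Subgroup.centralizer (U : Set G) ↔
      ⁅U, Subgroup.zpowers x⁆ = ⊥ := by
    intro U
    rw [Subgroup.commutator_eq_bot_iff_le_centralizer, Subgroup.le_centralizer_iff,
      Subgroup.zpowers_le]
  intro i
  induction i using Fin.induction with
  | zero =>
    have h0 : Q 0 ≤ Q (Fin.last m) ⊓ N := by
      refine le_inf (hQ.monotone (Fin.zero_le _)) ?_
      intro y hy
      rw [hN]
      intro j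
      exact Subgroup.le_normalizer (hQ.monotone (Fin.zero_le j) hy)
    exact Subgroup.centralizer_le h0 hc
  | succ i ih =>
    rw [hcz]
    refine H26.PxQ.commutator_eq_bot_pxq (P := Q i.castSucc) (hQp _) hord (hQp _) ?_ ?_ ?_ ?_
    · rw [← hcz]; exact ih
    · exact (hQ.monotone i.castSucc_le_succ).trans Subgroup.le_normalizer
    · rw [Subgroup.zpowers_le]; exact (hN x).1 hx _
    · rw [← hcz]
      refine Subgroup.centralizer_le ?_ hc
      intro y hy
      refine ⟨hQ.monotone (Fin.le_last _) hy.1, ?_⟩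
      refine (hN y).2 ?_
      intro j
      rcases le_or_gt j i.castSucc with hj | hj
      · have hyc : y ∈ Subgroup.centralizer (Q j : Set G) :=
          Subgroup.centralizer_le (hQ.monotone hj) hy.2
        exact centralizer_le_normalizer' _ hyc
      · have hj' : i.succ ≤ j := by
          rw [Fin.le_def]
          rw [Fin.lt_def] at hj
          simpa using hj
        exact Subgroup.le_normalizer (hQ.monotone hj' hy.1)

variable {k : Type*} [Field k] [CharP k p] [Algebra (ZMod p) k]

theorem chain_supp (hos : Os p k G) {m : ℕ} {Q : Fin (m + 1) → Subgroup G} (hQ : StrictMono Q)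
    (hQp : ∀ i, IsPGroup p (Q i)) {N : Subgroup G}
    (hN : ∀ g : G, g ∈ N ↔ ∀ i, g ∈ Subgroup.normalizer (Q i : Set G))
    {z : MonoidAlgebra k G} (hz : z ∈ Z k N) (hzz : z * z = z) :
    z ∈ Sp k (Subgroup.centralizer (Q (Fin.last m) : Set G) ⊓ N) := by
  intro x hx
  have hxN : x ∈ N := hz.2 x hx
  refine ⟨?_, hxN⟩
  have hxp : ¬ p ∣ orderOf x := fun h => hx (hos N z hz hzz x h)
  refine chain_cent hQ hQp hN hxN hxp ?_ _
  have h1 := br_idem_eq (Q := Q (Fin.last m) ⊓ N) (K := N) ((hQp _).to_le inf_le_left)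
    inf_le_right (by
      intro y hy
      rw [mem_normalizer, cs_inf, mem_normalizer.1 ((hN y).1 hy _), cs_of_mem hy]) hz hzz
  rw [← h1] at hx
  exact br_mem_Sp _ _ x hx

end H80.GU
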