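import Cfsg.Agent.Lib.H80.ML22
import Cfsg.Agent.Lib.H80.BR11
import Cfsg.Agent.Lib.H80.CY

set_option autoImplicit false
set_option linter.unusedSectionVars false
set_option linter.unusedVariables false
set_option linter.style.haveILetI false

/-!
# The lower bound, in terms of induced blocks
-/

namespace H80.ML23

open Cfsg H20.Loc H80.GA H80.GB H80.GC H80.GD H80.GE H80.GH H80.BR1

universe u

/-- lower bound, instance-free version -/
theorem le_rank {G : Type u} [Group G] [Finite G] {p : ℕ} [Fact p.Prime] {M : Ideal AlgInt}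
    (hM : IsPModular p M) {B : Set (IrrCharacter G)} (hB : IsPBlock M B) {P : Subgroup G}
    (hPD : IsDefectGroup p M B P) (hcyc : IsCyclic P) (hP1 : P ≠ ⊥)
    {c : Set (IrrCharacter (Subgroup.centralizer (P : Set G)))}
    (hc : IsInducedBlock M (Subgroup.centralizer (P : Set G)) c B) {T : Subgroup G}
    (hT : ∀ g : G, g ∈ T ↔ (g ∈ Subgroup.normalizer (P : Set G) ∧
      StabilizesBlock (Subgroup.centralizer (P : Set G)) c g)) :
    (Subgroup.centralizer (P : Set G)).relIndex T ≤ blockRank p B := by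
  have : M.IsMaximal := hM.2.1
  have : CharP (H20.Loc.ResF M) p := H20.Loc.charP_resF hM
  let _ : Algebra (ZMod p) (H20.Loc.ResF M) := ZMod.algebra (H20.Loc.ResF M) p
  have : Algebra.IsAlgebraic (ZMod p) (H20.Loc.ResF M) := H80.BR1.isAlgebraic_resF hM
  have : IsAlgClosed (H20.Loc.ResF M) := H20.Loc.isAlgClosed_resF
  have hab := H80.BR11.ab_of_cyclic hcyc
  obtain ⟨hmax, hTe, hTN, hCT, h1⟩ := H80.BR11.setup hM hB hPD hab hc hT
  have hPp : IsPGroup p P := hmax.of.pair.pgr
  have hfree := H80.CY.cyc_free hcyc hPp hTN hCT h1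
  have h2 := H80.ML22.lower hM hB hmax hcyc hP1 (by rw [← hTe]; exact hfree)
  rw [← hTe] at h2
  exact h2

end H80.ML23
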