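import Cfsg.Agent.Lib.H80.RM
import Cfsg.Agent.Lib.H80.RK2
import Cfsg.Agent.Lib.H80.BR2
import Cfsg.Agent.Lib.H77.DimBlock
import Cfsg.Agent.Lib.H20.Count

set_option autoImplicit false
set_option linter.unusedSectionVars false
set_option linter.unusedVariables false

/-!
# Robinson's theorem on the number of blocks with a normal defect group
-/

namespace H80.RB

open Cfsg H20.Loc H20.GA H20.Blk H20.Orth H80.RK
open scoped ComplexConjugate

universe u
variable {G : Type u} [Group G] [Fintype G] {M : Ideal AlgInt} {p : ℕ}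

/-- counting pairs -/
theorem count_formula (S : Subgroup G) [Fintype S] (x y : G) :
    (Nat.card {yz : G × G // yz.1 ∈ (ConjClasses.mk x).carrier ∧ yz.2 ∈ (ConjClasses.mk y).carrier ∧
      yz.2 * yz.1⁻¹ ∈ S} : ℂ) = ∑ u : S, zc (cls y * cls x⁻¹) (u : G) := by
  classical
  have h1 : ∀ u : S, zc (cls y * cls x⁻¹) (u : G) =
      ∑ h : G, if IsConj y h ∧ IsConj x ((u : G)⁻¹ * h) then (1 : ℂ) else 0 := by
    intro u
    rw [zc_mul]
    refine Finset.sum_congr rfl fun h _ => ?_
    rw [zc_cls, zc_cls]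
    have h2 : IsConj x⁻¹ (h⁻¹ * u) ↔ IsConj x ((u : G)⁻¹ * h) := by
      have : (h⁻¹ * (u : G)) = ((u : G)⁻¹ * h)⁻¹ := by group
      rw [this]
      constructor
      · intro hc
        obtain ⟨c, hc⟩ := isConj_iff.1 hc
        refine isConj_iff.2 ⟨c, ?_⟩
        have := congrArg (·⁻¹) hc
        simpa [mul_assoc] using this
      · intro hc
        obtain ⟨c, hc⟩ := isConj_iff.1 hc
        refine isConj_iff.2 ⟨c, ?_⟩
        rw [← hc]; group
    rw [if_congr h2 rfl rfl]
    by_cases ha : IsConj y h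
    · by_cases hb : IsConj x ((u : G)⁻¹ * h)
      · rw [if_pos ha, if_pos hb, if_pos ⟨ha, hb⟩, one_mul]
      · rw [if_pos ha, if_neg hb, if_neg (fun h => hb h.2), mul_zero]
    · rw [if_neg ha, zero_mul, if_neg (fun hh => ha hh.1)]
  rw [Finset.sum_congr rfl fun u _ => h1 u, ← Finset.sum_product', ]
  rw [Nat.card_eq_fintype_card, Fintype.card_subtype, Finset.card_filter, Nat.cast_sum]
  symm
  rw [Finset.sum_ite]
  simp only [Finset.sum_const_zero, add_zero, Finset.sum_const, nsmul_eq_mul, mul_one]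
  push_cast
  rw [Finset.sum_ite]
  simp only [Finset.sum_const_zero, add_zero, Finset.sum_const, nsmul_eq_mul, mul_one]
  congr 1
  refine Finset.card_bij' (fun (a : S × G) _ => ((a.1 : G)⁻¹ * a.2, a.2))
    (fun (b : G × G) hb => (⟨b.2 * b.1⁻¹, by
      simp only [Finset.mem_filter, Finset.mem_univ, true_and] at hb; exact hb.2.2⟩, b.2)) ?_ ?_ ?_ ?_
  · intro a ha
    simp only [Finset.mem_filter, Finset.mem_univ, Finset.mem_product, true_and] at ha ⊢
    refine ⟨?_, ?_, ?_⟩
    · rw [ConjClasses.mem_carrier_iff_mk_eq, ConjClasses.mk_eq_mk_iff_isConj]; exact ha.2.symm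
    · rw [ConjClasses.mem_carrier_iff_mk_eq, ConjClasses.mk_eq_mk_iff_isConj]; exact ha.1.symm
    · simp
  · intro b hb
    simp only [Finset.mem_filter, Finset.mem_univ, Finset.mem_product, true_and] at hb ⊢
    obtain ⟨h1, h2, h3⟩ := hb
    rw [ConjClasses.mem_carrier_iff_mk_eq, ConjClasses.mk_eq_mk_iff_isConj] at h1 h2
    refine ⟨h2.symm, ?_⟩
    have : (b.2 * b.1⁻¹)⁻¹ * b.2 = b.1 := by group
    rw [this]
    exact h1.symm
  · intro a ha
    apply Prod.ext
    · apply Subtype.ext
      simp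
    · rfl
  · intro b hb
    apply Prod.ext
    · simp
    · rfl

end H80.RB
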