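import Cfsg.Agent.Lib.H80.RB
import Cfsg.Agent.Lib.H81.ClassCount
import Cfsg.Agent.Lib.H19.BrMap
import Cfsg.Agent.Lib.H19.SylowAux
import Cfsg.Agent.Lib.H1.Cores

set_option autoImplicit false
set_option linter.unusedSectionVars false
set_option linter.unusedVariables false
set_option linter.style.haveILetI false

/-!
# Robinson's theorem: the entries modulo the maximal ideal
-/

namespace H80.RB2

open Cfsg H20.Loc H20.GA H20.Blk H20.Orth H20.Defect H20.Height H20.DefGrp H20.Count
open scoped ComplexConjugate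

universe u
variable {G : Type u} [Group G] [Fintype G] {M : Ideal AlgInt} {p : ℕ}

theorem exists_b (P : Subgroup G) [Fintype P] : ∃ b : IrrCharacter G → ℕ, ∀ χ : IrrCharacter G,
    ∑ u : P, (χ : G → ℂ) (u : G) = (Nat.card P : ℂ) * b χ := by
  have hb : ∀ χ' : IrrCharacter G, ∃ k : ℕ,
      ∑ u : P, (χ' : G → ℂ) (u : G) = (Nat.card P : ℂ) * k := by
    intro χ'
    obtain ⟨k, hk⟩ := H18.CharOrtho.inner_char_natCast
      (H18.CharBasic.isCharacter_restrict P (irr_char χ'))
      (H18.CharBasic.isCharacter_one (G := P))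
    refine ⟨k, ?_⟩
    have h0 : (Nat.card P : ℂ) ≠ 0 := by exact_mod_cast Nat.card_pos.ne'
    rw [← hk, classInner, mul_inv_cancel_left₀ h0]
    simp
  choose b hb using hb
  exact ⟨b, hb⟩

theorem block_sum (hM : IsPModular p M) {B : Set (IrrCharacter G)} (hB : IsPBlock M B)
    [Fintype (IrrCharacter G)] [DecidablePred (· ∈ B)]
    (P : Sylow p G) [Fintype (P : Subgroup G)] {b : IrrCharacter G → ℕ}
    (hb : ∀ χ : IrrCharacter G, ∑ u : (P : Subgroup G), (χ : G → ℂ) (u : G) =
      (Nat.card (P : Subgroup G) : ℂ) * b χ) :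
    ∃ t : ℕ, ¬ p ∣ t ∧ ∑ χ : IrrCharacter G, (if χ ∈ B then (χ : G → ℂ) 1 * (b χ : ℂ) else 0) =
      (p : ℂ) ^ ((Nat.card G).factorization p - blockDefect p B) * (t : ℂ) := by
  classical
  haveI := pm_isPrime hM
  haveI : Fact p.Prime := ⟨pm_prime hM⟩
  have hp0 : (p : ℂ) ≠ 0 := by exact_mod_cast (pm_prime hM).ne_zero
  have hPcard : Nat.card (P : Subgroup G) = p ^ (Nat.card G).factorization p := P.card_eq_multiplicity
  have hPsing : ∀ u : (P : Subgroup G), u ≠ 1 → p ∣ orderOf (u : G) := by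
    intro u hu
    obtain ⟨k, hk⟩ := IsPGroup.iff_orderOf.1 P.2 u
    rw [Subgroup.orderOf_coe, hk]
    apply dvd_pow_self
    rintro rfl
    rw [pow_zero, orderOf_eq_one_iff] at hk
    exact hu hk
  have hf := H77.DimBlock.factorization_sum_sq hM hB
  set N : ℕ := ∑ᶠ χ ∈ B, charDegree (χ : G → ℂ) ^ 2 with hN
  have hda : blockDefect p B ≤ (Nat.card G).factorization p := Nat.sub_le _ _
  have h7 : (N : ℂ) = ∑ χ' : IrrCharacter G, if χ' ∈ B then (χ' : G → ℂ) 1 * (χ' : G → ℂ) 1 else 0 := by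
    rw [hN, finsum_eq_sum_of_fintype]
    push_cast
    refine Finset.sum_congr rfl fun χ' _ => ?_
    rw [finsum_eq_if]
    split_ifs
    · push_cast
      rw [charDegree_irr]; ring
    · simp
  have h8 : ∑ u : (P : Subgroup G), ∑ χ' : IrrCharacter G,
      (if χ' ∈ B then (χ' : G → ℂ) 1 * (χ' : G → ℂ) (u : G) else 0) =
      ∑ χ' : IrrCharacter G, if χ' ∈ B then (χ' : G → ℂ) 1 * (χ' : G → ℂ) 1 else 0 := by
    rw [Finset.sum_eq_single (1 : (P : Subgroup G))]
    · simp
    · intro u _ hu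
      have h9 := weak_orth hM (isUnion_of_isPBlock hB) (x := 1) (y := (u : G)⁻¹)
        (by simpa using (pm_prime hM).one_lt.ne') (by
          rw [orderOf_inv]; exact hPsing u hu)
      refine Eq.trans (Finset.sum_congr rfl fun χ' _ => ?_) h9
      split_ifs
      · rw [H18.CharBasic.char_inv (irr_char χ')]
        simp
      · rfl
    · intro hc; exact absurd (Finset.mem_univ _) hc
  have h9 : (Nat.card (P : Subgroup G) : ℂ) *
      ∑ χ : IrrCharacter G, (if χ ∈ B then (χ : G → ℂ) 1 * (b χ : ℂ) else 0) = N := by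
    rw [h7, ← h8, Finset.sum_comm, Finset.mul_sum]
    refine Finset.sum_congr rfl fun χ' _ => ?_
    split_ifs with hχ'
    · rw [← Finset.mul_sum, hb]; ring
    · simp
  have hN0 : N ≠ 0 := by
    intro h0
    obtain ⟨ψ, hψ⟩ := isPBlock_nonempty hB
    rw [h0] at h7
    have h10 : (∑ χ' : IrrCharacter G, if χ' ∈ B then charDegree (χ' : G → ℂ) ^ 2 else 0) = 0 := by
      have : ((∑ χ' : IrrCharacter G, if χ' ∈ B then charDegree (χ' : G → ℂ) ^ 2 else 0 : ℕ) : ℂ) = 0 := by
        push_cast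
        rw [Nat.cast_zero] at h7
        refine Eq.trans (Finset.sum_congr rfl fun χ' _ => ?_) h7.symm
        split_ifs
        · rw [charDegree_irr]; ring
        · rfl
      exact_mod_cast this
    rw [Finset.sum_eq_zero_iff] at h10
    have h11 := h10 ψ (Finset.mem_univ _)
    rw [if_pos hψ] at h11
    exact charDegree_ne_zero ψ (pow_eq_zero_iff (two_ne_zero) |>.1 h11)
  obtain ⟨t, ht⟩ : p ^ (N.factorization p) ∣ N := Nat.ordProj_dvd _ p
  have htp : ¬ p ∣ t := by
    intro hd
    apply Nat.not_dvd_ordCompl (pm_prime hM) hN0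
    rw [Nat.div_eq_of_eq_mul_right (pow_pos (pm_prime hM).pos _) ht]
    exact hd
  refine ⟨t, htp, ?_⟩
  have hPc : (Nat.card (P : Subgroup G) : ℂ) ≠ 0 := by exact_mod_cast Nat.card_pos.ne'
  apply mul_left_cancel₀ hPc
  rw [h9, hPcard]
  conv_lhs => rw [ht, hf]
  push_cast
  rw [← mul_assoc, ← pow_add]
  congr 2
  omega

/-- `x` is `p`-regular with `D` a Sylow `p`-subgroup of its centralizer -/
def IsK (p : ℕ) (D : Subgroup G) (x : G) : Prop :=
  ¬ p ∣ orderOf x ∧ D ≤ Subgroup.centralizer ({x} : Set G) ∧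
    (Nat.card (Subgroup.centralizer ({x} : Set G))).factorization p = (Nat.card D).factorization p

theorem isK_inv {D : Subgroup G} {x : G} (h : IsK p D x) : IsK p D x⁻¹ := by
  have hc : Subgroup.centralizer ({x⁻¹} : Set G) = Subgroup.centralizer ({x} : Set G) := by
    ext g
    rw [Subgroup.mem_centralizer_singleton_iff, Subgroup.mem_centralizer_singleton_iff]
    constructor
    · intro h
      have := congrArg (fun z => x * z * x) h
      simpa [mul_assoc] using this.symm
    · intro h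
      have := congrArg (fun z => x⁻¹ * z * x⁻¹) h
      simpa [mul_assoc] using this.symm
  obtain ⟨h1, h2, h3⟩ := h
  refine ⟨by rwa [orderOf_inv], ?_, ?_⟩
  · rw [hc]; exact h2
  · rw [hc]; exact h3

theorem normal_le_defect (hM : IsPModular p M) {D : Subgroup G} (hDn : D.Normal)
    (hDp : IsPGroup p D) {B : Set (IrrCharacter G)} (hB : IsPBlock M B) {D' : Subgroup G}
    (hD' : IsDefectGroup p M B D') : D ≤ D' := by
  haveI := pm_isPrime hM
  haveI : Fact p.Prime := ⟨pm_prime hM⟩
  obtain ⟨χ, hχ⟩ := isPBlock_nonempty hB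
  obtain ⟨g, hg, S, rfl⟩ := hD'
  have hgc : g ∈ Subgroup.centralizer (D : Set G) := by
    by_contra hc
    apply hg.2.2 χ hχ
    rw [← omega_cls]
    exact H19.BrMap.omega_cls_memI hM D hDp χ g hc
  have hle : D ≤ Subgroup.centralizer ({g} : Set G) := by
    intro x hx
    rw [Subgroup.mem_centralizer_singleton_iff]
    exact Subgroup.mem_centralizer_iff.1 hgc x hx
  haveI hn2 : (D.subgroupOf (Subgroup.centralizer ({g} : Set G))).Normal :=
    Subgroup.Normal.subgroupOf hDn _
  have hpg : IsPGroup p (D.subgroupOf (Subgroup.centralizer ({g} : Set G))) :=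
    hDp.comap_of_injective _ (Subgroup.subtype_injective _)
  have hS := (H1.Cores.le_pCore hn2 hpg).trans (H1.Cores.pCore_le_sylow S)
  intro x hx
  exact ⟨⟨x, hle hx⟩, hS hx, rfl⟩

/-- blocks with a defect group different from the normal `p`-subgroup `D` -/
theorem omega_memI_of_not (hM : IsPModular p M) {D : Subgroup G} (hDn : D.Normal)
    (hDp : IsPGroup p D) {B : Set (IrrCharacter G)} (hB : IsPBlock M B)
    (hnot : ¬ IsDefectGroup p M B D) {x : G} (hx : IsK p D x) {χ : IrrCharacter G} (hχ : χ ∈ B) :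
    MemLocalIdeal M (omega χ (cls x)) := by
  haveI := pm_isPrime hM
  haveI : Fact p.Prime := ⟨pm_prime hM⟩
  by_contra hun
  obtain ⟨D', hD'⟩ := exists_isDefectGroup hM hB
  obtain ⟨g, hg, P, hP⟩ := isDefectGroup_iff.1 hD'
  have h1 : ∃ χ ∈ B, ¬ MemLocalIdeal M (centralChar (χ : G → ℂ) x) := ⟨χ, hχ, by rwa [← omega_cls]⟩
  obtain ⟨y, hxy, hy⟩ := sylow_le_of_blockCoeff hM hB h1 hg.2.1 (isPGroup_sylC g P) (sylC_le g P)
  -- |D'| ≤ |D|
  have hDD : D ≤ D' := normal_le_defect hM hDn hDp hB hD'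
  have hle : Nat.card D' ≤ Nat.card D := by
    rw [← hP] at hy
    obtain ⟨c, hc⟩ := isConj_iff.1 hxy
    have h2 : Nat.card (Subgroup.centralizer ({y} : Set G)) =
        Nat.card (Subgroup.centralizer ({x} : Set G)) := by
      rw [← hc]
      exact H19.SylowAux.card_centralizer_conj x c
    have h3 : Nat.card D' ∣ Nat.card (Subgroup.centralizer ({x} : Set G)) := by
      rw [← h2]; exact Subgroup.card_dvd_of_le hy
    obtain ⟨k, hk⟩ := (isPGroup_of_isDefectGroup hD').exists_card_eq
    obtain ⟨l, hl⟩ := hDp.exists_card_eq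
    have h4 := (pm_prime hM).pow_dvd_iff_le_factorization (Nat.card_pos (α := (Subgroup.centralizer ({x} : Set G)))).ne' |>.1 (hk ▸ h3)
    rw [hx.2.2, hl, Nat.Prime.factorization_pow (pm_prime hM), Finsupp.single_eq_same] at h4
    rw [hk, hl]
    exact Nat.pow_le_pow_right (pm_prime hM).pos h4
  have : D = D' := Subgroup.eq_of_le_of_card_ge hDD hle
  exact hnot (this ▸ hD')

/-- `C` not in the list: one of the two factors is in the ideal -/
theorem isK_of_unit (hM : IsPModular p M) {D : Subgroup G} (hDn : D.Normal)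
    (hDp : IsPGroup p D) {B : Set (IrrCharacter G)} (hB : IsPBlock M B)
    (hD : IsDefectGroup p M B D) {x : G} {ψ : IrrCharacter G}
    (h1 : ¬ MemLocalIdeal M (blockCoeff B x)) (h2 : ¬ MemLocalIdeal M (omega ψ (cls x))) :
    IsK p D x := by
  haveI := pm_isPrime hM
  haveI : Fact p.Prime := ⟨pm_prime hM⟩
  refine ⟨fun h => h1 ?_, ?_, ?_⟩
  · rw [blockCoeff_eq_zero hM (isUnion_of_isPBlock hB) h]; exact locI_zero
  · have hgc : x ∈ Subgroup.centralizer (D : Set G) := by
      by_contra hc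
      exact h2 (H19.BrMap.omega_cls_memI hM D hDp ψ x hc)
    intro y hy
    rw [Subgroup.mem_centralizer_singleton_iff]
    exact Subgroup.mem_centralizer_iff.1 hgc y hy
  · have hgc : x ∈ Subgroup.centralizer (D : Set G) := by
      by_contra hc
      exact h2 (H19.BrMap.omega_cls_memI hM D hDp ψ x hc)
    have hle : D ≤ Subgroup.centralizer ({x} : Set G) := by
      intro y hy
      rw [Subgroup.mem_centralizer_singleton_iff]
      exact Subgroup.mem_centralizer_iff.1 hgc y hy
    apply le_antisymm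
    · have := defect_ge_of_unit hM hB h1
      obtain ⟨g, hg, P, hP⟩ := isDefectGroup_iff.1 hD
      rw [blockDefect_eq hM hB hg] at this
      refine this.trans (le_of_eq ?_)
      rw [hP, card_sylC, Sylow.card_eq_multiplicity, Nat.Prime.factorization_pow (pm_prime hM),
        Finsupp.single_eq_same]
    · exact (Nat.factorization_le_iff_dvd Nat.card_pos.ne' Nat.card_pos.ne').2
        (Subgroup.card_dvd_of_le hle) p

/-- the summand attached to a character -/
noncomputable def F (p : ℕ) (D : Subgroup G) (b : IrrCharacter G → ℕ) (x y : G) (χ : IrrCharacter G) : ℂ :=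
  ((χ : G → ℂ) 1 * (b χ : ℂ) /
    (p : ℂ) ^ ((Nat.card G).factorization p - (Nat.card D).factorization p)) *
    (omega χ (cls y) * omega χ (cls x⁻¹))

theorem idx_eq (hM : IsPModular p M) {D : Subgroup G} {x : G} (hx : IsK p D x) :
    ∃ k : ℕ, (Subgroup.centralizer ({x⁻¹} : Set G)).index =
      p ^ ((Nat.card G).factorization p - (Nat.card D).factorization p) * k := by
  have h1 := (isK_inv hx).2.2
  have h2 := factorization_index (p := p) x⁻¹
  rw [h1] at h2
  have h3 : p ^ ((Subgroup.centralizer ({x⁻¹} : Set G)).index.factorization p) ∣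
      (Subgroup.centralizer ({x⁻¹} : Set G)).index := Nat.ordProj_dvd _ p
  have h4 : (Subgroup.centralizer ({x⁻¹} : Set G)).index.factorization p =
      (Nat.card G).factorization p - (Nat.card D).factorization p := by omega
  rw [h4] at h3
  exact h3

theorem deg_omega (hM : IsPModular p M) {D : Subgroup G} {x : G} (hx : IsK p D x)
    (χ : IrrCharacter G) : MemLocalRing M ((χ : G → ℂ) 1 /
      (p : ℂ) ^ ((Nat.card G).factorization p - (Nat.card D).factorization p) *
      omega χ (cls x⁻¹)) := by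
  haveI := pm_isPrime hM
  obtain ⟨k, hk⟩ := idx_eq hM hx
  have h1 : (χ : G → ℂ) 1 ≠ 0 := H18.CharBasic.irr_one_ne_zero χ.2
  have hp0 : (p : ℂ) ≠ 0 := by exact_mod_cast (pm_prime hM).ne_zero
  rw [omega_cls, centralChar, hk]
  have h2 : (χ : G → ℂ) 1 /
      (p : ℂ) ^ ((Nat.card G).factorization p - (Nat.card D).factorization p) *
      (((p ^ ((Nat.card G).factorization p - (Nat.card D).factorization p) * k : ℕ) : ℂ) *
        (χ : G → ℂ) x⁻¹ / (χ : G → ℂ) 1) = (k : ℂ) * (χ : G → ℂ) x⁻¹ := by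
    push_cast
    field_simp
  rw [h2]
  exact locR_mul (locR_natCast _) (isIntegral_mem (irr_int χ _))

theorem F_mem (hM : IsPModular p M) {D : Subgroup G} {x y : G} (hx : IsK p D x)
    (b : IrrCharacter G → ℕ) (χ : IrrCharacter G) : MemLocalRing M (F p D b x y χ) := by
  haveI := pm_isPrime hM
  have h1 : F p D b x y χ = ((b χ : ℂ) * omega χ (cls y)) * ((χ : G → ℂ) 1 /
      (p : ℂ) ^ ((Nat.card G).factorization p - (Nat.card D).factorization p) *
      omega χ (cls x⁻¹)) := by
    rw [F]; ring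
  rw [h1]
  refine locR_mul (locR_mul (locR_natCast _) ?_) (deg_omega hM hx χ)
  rw [omega_cls]
  exact centralChar_memR χ y

theorem F_memI (hM : IsPModular p M) {D : Subgroup G} (hDn : D.Normal)
    (hDp : IsPGroup p D) {x y : G} (hx : IsK p D x) (hy : IsK p D y)
    (b : IrrCharacter G → ℕ) (χ : IrrCharacter G)
    (hnot : ¬ IsDefectGroup p M (blockOf M (χ : G → ℂ)) D) : MemLocalIdeal M (F p D b x y χ) := by
  haveI := pm_isPrime hM
  have h1 : F p D b x y χ = ((b χ : ℂ) * omega χ (cls y)) * ((χ : G → ℂ) 1 /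
      (p : ℂ) ^ ((Nat.card G).factorization p - (Nat.card D).factorization p) *
      omega χ (cls x⁻¹)) := by
    rw [F]; ring
  rw [h1]
  refine locI_mul_right (locI_mul_left (locR_natCast _) ?_) (deg_omega hM hx χ)
  exact omega_memI_of_not hM hDn hDp (isPBlock_blockOf χ) hnot hy (mem_blockOf_self χ)

theorem sum_F (hM : IsPModular p M) {D : Subgroup G} [Fintype (IrrCharacter G)]
    (S : Sylow p G) [Fintype (S : Subgroup G)] {b : IrrCharacter G → ℕ}
    (hb : ∀ χ : IrrCharacter G, ∑ u : (S : Subgroup G), (χ : G → ℂ) (u : G) =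
      (Nat.card (S : Subgroup G) : ℂ) * b χ) (x y : G) :
    (Nat.card {yz : G × G // yz.1 ∈ (ConjClasses.mk x).carrier ∧ yz.2 ∈ (ConjClasses.mk y).carrier ∧
      yz.2 * yz.1⁻¹ ∈ (S : Subgroup G)} : ℂ) /
      (p : ℂ) ^ ((Nat.card G).factorization p - (Nat.card D).factorization p) =
    ((Nat.card (S : Subgroup G) : ℂ) / (Nat.card G : ℂ)) * ∑ χ : IrrCharacter G, F p D b x y χ := by
  have hp0 : (p : ℂ) ≠ 0 := by exact_mod_cast (pm_prime hM).ne_zero
  have hG0 : (Nat.card G : ℂ) ≠ 0 := by exact_mod_cast Nat.card_pos.ne'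
  rw [RB.count_formula]
  simp_rw [H81.ClassCount.zc_eq_sum]
  rw [← Finset.mul_sum, Finset.sum_comm, Finset.mul_sum, Finset.mul_sum, Finset.sum_div]
  refine Finset.sum_congr rfl fun χ _ => ?_
  rw [← Finset.mul_sum]
  have h1 : ∑ i : (S : Subgroup G), conj ((χ : G → ℂ) (i : G)) = (Nat.card (S : Subgroup G) : ℂ) * b χ := by
    rw [← map_sum, hb]
    simp
  rw [h1, map_mul, F]
  field_simp

/-- the entry modulo the maximal ideal -/
theorem entry (hM : IsPModular p M) {D : Subgroup G} (hDn : D.Normal)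
    (hDp : IsPGroup p D) [Fintype (IrrCharacter G)]
    (S : Sylow p G) [Fintype (S : Subgroup G)] {b : IrrCharacter G → ℕ}
    (hb : ∀ χ : IrrCharacter G, ∑ u : (S : Subgroup G), (χ : G → ℂ) (u : G) =
      (Nat.card (S : Subgroup G) : ℂ) * b χ)
    (T : Type*) [Fintype T] (blk : T → Set (IrrCharacter G)) (hinj : Function.Injective blk)
    (hblk : ∀ B : Set (IrrCharacter G), (∃ t, blk t = B) ↔ (IsPBlock M B ∧ IsDefectGroup p M B D))
    (χT : T → IrrCharacter G) (hχT : ∀ t, χT t ∈ blk t) (c : T → ℕ)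
    (hc : ∀ t, ∑ χ : IrrCharacter G, (haveI := Classical.propDecidable (χ ∈ blk t)
      if χ ∈ blk t then (χ : G → ℂ) 1 * (b χ : ℂ) else 0) =
      (p : ℂ) ^ ((Nat.card G).factorization p - (Nat.card D).factorization p) * (c t : ℂ))
    {x y : G} (hx : IsK p D x) (hy : IsK p D y) :
    MemLocalIdeal M (∑ χ : IrrCharacter G, F p D b x y χ -
      ∑ t : T, (c t : ℂ) * (omega (χT t) (cls y) * omega (χT t) (cls x⁻¹))) := by
  classical
  haveI := pm_isPrime hM
  haveI : Fact p.Prime := ⟨pm_prime hM⟩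
  have hp0 : (p : ℂ) ≠ 0 := by exact_mod_cast (pm_prime hM).ne_zero
  have h1 : MemLocalIdeal M (∑ χ : IrrCharacter G, F p D b x y χ -
      ∑ χ : IrrCharacter G, ∑ t : T, if χ ∈ blk t then F p D b x y χ else 0) := by
    refine locI_sum_congr fun χ _ => ?_
    by_cases hχ : IsDefectGroup p M (blockOf M (χ : G → ℂ)) D
    · obtain ⟨t, ht⟩ := (hblk (blockOf M (χ : G → ℂ))).2 ⟨isPBlock_blockOf χ, hχ⟩
      rw [Finset.sum_eq_single t]
      · rw [if_pos (by rw [ht]; exact mem_blockOf_self χ)]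
        exact locI_refl _
      · intro s _ hst
        rw [if_neg]
        intro hs
        apply hst
        apply hinj
        rw [ht]
        exact isPBlock_eq ((hblk (blk s)).1 ⟨s, rfl⟩).1 hs
      · intro h; exact absurd (Finset.mem_univ _) h
    · rw [Finset.sum_eq_zero, sub_zero]
      · exact F_memI hM hDn hDp hx hy b χ hχ
      · intro t _
        rw [if_neg]
        intro ht
        obtain ⟨h1, h2⟩ := (hblk (blk t)).1 ⟨t, rfl⟩
        rw [isPBlock_eq h1 ht] at h2
        exact hχ h2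
  refine locI_trans h1 ?_
  rw [Finset.sum_comm]
  refine locI_sum_congr fun t _ => ?_
  obtain ⟨hB, hBD⟩ := (hblk (blk t)).1 ⟨t, rfl⟩
  have hdef : blockDefect p (blk t) = (Nat.card D).factorization p := by
    obtain ⟨g, hg, P, hP⟩ := isDefectGroup_iff.1 hBD
    rw [blockDefect_eq hM hB hg]
    rw [hP, card_sylC, Sylow.card_eq_multiplicity, Nat.Prime.factorization_pow (pm_prime hM),
      Finsupp.single_eq_same]
  set e := (Nat.card G).factorization p - (Nat.card D).factorization p with he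
  have hct : (c t : ℂ) = ∑ χ : IrrCharacter G,
      if χ ∈ blk t then (χ : G → ℂ) 1 * (b χ : ℂ) / (p : ℂ) ^ e else 0 := by
    have h2 := hc t
    have h3 : (c t : ℂ) = (∑ χ : IrrCharacter G,
      if χ ∈ blk t then (χ : G → ℂ) 1 * (b χ : ℂ) else 0) / (p : ℂ) ^ e := by
      rw [eq_div_iff (pow_ne_zero _ hp0), mul_comm, ← h2]
    rw [h3, Finset.sum_div]
    refine Finset.sum_congr rfl fun χ _ => ?_
    split_ifs
    · rfl
    · rw [zero_div]
  rw [hct, Finset.sum_mul]
  refine locI_sum_congr fun χ _ => ?_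
  split_ifs with hχ
  · rw [F, ← mul_sub]
    -- χ(1) divisible by p^e
    have h4 : MemLocalRing M ((χ : G → ℂ) 1 * (b χ : ℂ) / (p : ℂ) ^ e) := by
      have h5 := defect_le_degree hM hB hχ
      rw [hdef] at h5
      have h6 : p ^ e ∣ charDegree (χ : G → ℂ) := by
        rw [(pm_prime hM).pow_dvd_iff_le_factorization (charDegree_ne_zero χ)]
        omega
      obtain ⟨k, hk⟩ := h6
      rw [← charDegree_irr, hk]
      have : ((p ^ e * k : ℕ) : ℂ) * (b χ : ℂ) / (p : ℂ) ^ e = ((k * b χ : ℕ) : ℂ) := by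
        push_cast
        field_simp
      rw [this]
      exact locR_natCast _
    refine locI_mul_left h4 ?_
    have h7 := isPBlock_sameBlock hB hχ (hχT t)
    rw [sameBlock_iff] at h7
    refine locI_mul_congr ?_ ?_ (h7 _ (cls_mem y)) (h7 _ (cls_mem x⁻¹))
    · exact omega_mem _ (cls_mem _)
    · exact omega_mem _ (cls_mem _)
  · rw [zero_mul, sub_zero]; exact locI_zero

end H80.RB2
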