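import Cfsg.Agent.Lib.H80.RB2

set_option autoImplicit false
set_option linter.unusedSectionVars false
set_option linter.unusedVariables false
set_option linter.style.haveILetI false

/-!
# Robinson's theorem: the rank
-/

namespace H80.RB3

open Cfsg H20.Loc H20.GA H20.Blk H20.Orth H20.Defect H20.Height H20.DefGrp H20.Count H80.RB2
open scoped ComplexConjugate

universe u
variable {G : Type u} [Group G] [Fintype G] {M : Ideal AlgInt} {p : ℕ}

theorem blockCoeff_conj (B : Set (IrrCharacter G)) {g h : G} (hgh : IsConj g h) :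
    blockCoeff B g = blockCoeff B h := by
  obtain ⟨c, hc⟩ := isConj_iff.1 hgh
  rw [← hc]
  exact (blockCoeff_class B g c).symm

theorem isK_conj {D : Subgroup G} (hDn : D.Normal) {x y : G} (hxy : IsConj x y) (h : IsK p D x) :
    IsK p D y := by
  obtain ⟨c, hc⟩ := isConj_iff.1 hxy
  obtain ⟨h1, h2, h3⟩ := h
  refine ⟨?_, ?_, ?_⟩
  · rw [← hc, orderOf_conj]; exact h1
  · intro d hd
    have h4 := h2 (hDn.conj_mem d hd c⁻¹)
    rw [Subgroup.mem_centralizer_singleton_iff] at h4 ⊢
    rw [← hc]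
    have := congrArg (fun z => c * z * c⁻¹) h4
    simpa [mul_assoc] using this
  · rw [← H19.SylowAux.card_centralizer_of_isConj hxy]; exact h3

theorem isK_iff {D : Subgroup G} [Fact p.Prime] (hDp : IsPGroup p D) (x : G) :
    IsK p D x ↔ (¬ p ∣ orderOf x ∧ ∃ Q : Sylow p (Subgroup.centralizer ({x} : Set G)),
      (Q : Subgroup (Subgroup.centralizer ({x} : Set G))).map
        (Subgroup.centralizer ({x} : Set G)).subtype = D) := by
  constructor
  · rintro ⟨h1, h2, h3⟩
    refine ⟨h1, ?_⟩
    have h4 : Nat.card (D.subgroupOf (Subgroup.centralizer ({x} : Set G))) = Nat.card D :=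
      Nat.card_congr (Subgroup.subgroupOfEquivOfLe h2).toEquiv
    obtain ⟨l, hl⟩ := hDp.exists_card_eq
    have h5 : Nat.card (D.subgroupOf (Subgroup.centralizer ({x} : Set G))) =
        p ^ (Nat.card (Subgroup.centralizer ({x} : Set G))).factorization p := by
      rw [h4, h3, hl, Nat.Prime.factorization_pow (Fact.out), Finsupp.single_eq_same]
    refine ⟨Sylow.ofCard _ h5, ?_⟩
    show (D.subgroupOf _).map _ = D
    rw [Subgroup.subgroupOf_map_subtype]
    exact inf_eq_left.2 h2
  · rintro ⟨h1, Q, hQ⟩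
    refine ⟨h1, ?_, ?_⟩
    · rw [← hQ]
      exact Subgroup.map_subtype_le _
    · have : Nat.card D = Nat.card Q := by
        rw [← hQ]
        exact Subgroup.card_map_of_injective (Subgroup.subtype_injective _)
      rw [this, Sylow.card_eq_multiplicity, Nat.Prime.factorization_pow (Fact.out),
        Finsupp.single_eq_same]

theorem dual [M.IsMaximal] (hM : IsPModular p M) {D : Subgroup G} (hDn : D.Normal)
    (hDp : IsPGroup p D) {ι : Type*} [Fintype ι] (x : ι → G)
    (hinj : ∀ i j, IsConj (x i) (x j) → i = j) (hcov : ∀ g : G, IsK p D g → ∃ i, IsConj (x i) g)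
    {B : Set (IrrCharacter G)} (hB : IsPBlock M B)
    (hBD : IsDefectGroup p M B D) (χ : IrrCharacter G) [Decidable (χ ∈ B)] :
    ∑ i : ι, redFun M (omega χ (cls (x i))) * redFun M (blockCoeff B (x i)) =
      if χ ∈ B then 1 else 0 := by
  classical
  haveI := pm_isPrime hM
  haveI : Fact p.Prime := ⟨pm_prime hM⟩
  letI : Fintype (ConjClasses G) := Fintype.ofFinite _
  have h1 := omega_sum_classes χ (eB B)
  have h2 : redFun M (omega χ (eB B)) = ∑ C : ConjClasses G,
      redFun M (omega χ (cls C.out)) * redFun M (blockCoeff B C.out) := by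
    rw [h1, redFun_sum]
    · refine Finset.sum_congr rfl fun C _ => ?_
      rw [zc_eB, redFun_mul (blockCoeff_memR hB _) (centralChar_memR χ _), mul_comm, omega_cls]
    · intro C _
      rw [zc_eB]
      exact locR_mul (blockCoeff_memR hB _) (centralChar_memR χ _)
  have h3 : redFun M (omega χ (eB B)) = if χ ∈ B then 1 else 0 := by
    rw [omega_eB]
    split_ifs
    · exact redFun_one
    · exact redFun_zero
  rw [← h3, h2]
  refine Fintype.sum_of_injective (fun i => ConjClasses.mk (x i)) ?_ _ _ ?_ ?_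
  · intro i j hij
    exact hinj i j (ConjClasses.mk_eq_mk_iff_isConj.1 hij)
  · intro C hC
    by_contra hne
    have h4 : ¬ MemLocalIdeal M (blockCoeff B C.out) := by
      intro h
      rw [← redFun_eq_zero_iff (blockCoeff_memR hB _)] at h
      exact hne (by rw [h, mul_zero])
    have h5 : ¬ MemLocalIdeal M (omega χ (cls C.out)) := by
      intro h
      rw [← redFun_eq_zero_iff (omega_mem χ (cls_mem _))] at h
      exact hne (by rw [h, zero_mul])
    obtain ⟨i, hi⟩ := hcov _ (isK_of_unit hM hDn hDp hB hBD h4 h5)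
    apply hC
    refine ⟨i, ?_⟩
    show ConjClasses.mk (x i) = C
    rw [← mk_out C]
    exact ConjClasses.mk_eq_mk_iff_isConj.2 hi
  · intro i
    have h4 : IsConj (x i) (ConjClasses.mk (x i)).out := by
      rw [← ConjClasses.mk_eq_mk_iff_isConj, mk_out]
    rw [cls_congr h4, blockCoeff_conj B h4]

/-- Robinson's theorem -/
theorem main (hM : IsPModular p M) {D : Subgroup G} (hDn : D.Normal)
    (hDp : IsPGroup p D) (S : Sylow p G) {ι : Type*} [Fintype ι] [DecidableEq ι]
    (x : ι → G) (hinj : ∀ i j, IsConj (x i) (x j) → i = j)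
    (hcov : ∀ g : G, IsK p D g → ∃ i, IsConj (x i) g) (hx : ∀ i, IsK p D (x i))
    (hp : Fact p.Prime) :
    Nat.card {B : Set (IrrCharacter G) // IsPBlock M B ∧ IsDefectGroup p M B D} =
      (Matrix.of fun i j : ι => ((Nat.card {yz : G × G // yz.1 ∈ (ConjClasses.mk (x i)).carrier ∧
        yz.2 ∈ (ConjClasses.mk (x j)).carrier ∧ yz.2 * yz.1⁻¹ ∈ (S : Subgroup G)} /
        p ^ ((Nat.card G).factorization p - (Nat.card D).factorization p) : ℕ) : ZMod p)).rank := by
  classical
  haveI := pm_isPrime hM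
  haveI hMm : M.IsMaximal := hM.2.1
  letI : Fintype (IrrCharacter G) := Fintype.ofFinite _
  letI : Fintype (S : Subgroup G) := Fintype.ofFinite _
  haveI : Finite (Set (IrrCharacter G)) := inferInstance
  letI : Fintype {B : Set (IrrCharacter G) // IsPBlock M B ∧ IsDefectGroup p M B D} :=
    Fintype.ofFinite _
  haveI := charP_resF hM
  let f : ZMod p →+* ResF M := ZMod.castHom (dvd_refl p) (ResF M)
  set T := {B : Set (IrrCharacter G) // IsPBlock M B ∧ IsDefectGroup p M B D} with hT
  obtain ⟨b, hb⟩ := exists_b (S : Subgroup G)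
  have hχT : ∀ t : T, ∃ χ : IrrCharacter G, χ ∈ t.1 := fun t => isPBlock_nonempty t.2.1
  choose χT hχT using hχT
  set e := (Nat.card G).factorization p - (Nat.card D).factorization p with he
  have hc : ∀ t : T, ∃ c : ℕ, ¬ p ∣ c ∧ ∑ χ : IrrCharacter G, (if χ ∈ t.1 then
      (χ : G → ℂ) 1 * (b χ : ℂ) else 0) = (p : ℂ) ^ e * (c : ℂ) := by
    intro t
    obtain ⟨c, h1, h2⟩ := block_sum hM t.2.1 S hb
    refine ⟨c, h1, ?_⟩
    rw [h2]
    obtain ⟨g, hg, P, hP⟩ := isDefectGroup_iff.1 t.2.2
    rw [blockDefect_eq hM t.2.1 hg, he]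
    have : Nat.card D = Nat.card P := by rw [hP, card_sylC]
    rw [this, Sylow.card_eq_multiplicity, Nat.Prime.factorization_pow (pm_prime hM),
      Finsupp.single_eq_same]
  choose c hcp hc using hc
  set u : ℂ := (Nat.card (S : Subgroup G) : ℂ) / (Nat.card G : ℂ) with hu
  -- u is a unit
  obtain ⟨q, hq⟩ : p ^ (Nat.card G).factorization p ∣ Nat.card G := Nat.ordProj_dvd _ p
  have hqp : ¬ p ∣ q := by
    intro hd
    apply Nat.not_dvd_ordCompl (pm_prime hM) (Nat.card_pos (α := G)).ne'
    rw [Nat.div_eq_of_eq_mul_right (pow_pos (pm_prime hM).pos _) hq]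
    exact hd
  have hp0 : (p : ℂ) ≠ 0 := by exact_mod_cast (pm_prime hM).ne_zero
  have hq0 : (q : ℂ) ≠ 0 := by
    have : q ≠ 0 := by rintro rfl; exact hqp (dvd_zero _)
    exact_mod_cast this
  have huq : u = (q : ℂ)⁻¹ := by
    have hqc : (Nat.card G : ℂ) = (p : ℂ) ^ (Nat.card G).factorization p * (q : ℂ) := by
      exact_mod_cast hq
    rw [hu, Sylow.card_eq_multiplicity S, hqc]
    push_cast
    field_simp
  have huR : MemLocalRing M u := by rw [huq]; exact locR_natCast_inv hM hqp
  have huI : ¬ MemLocalIdeal M u := by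
    rw [huq]
    exact not_locI_inv (locR_natCast _) (by rw [locI_natCast_iff hM]; exact hqp)
  -- the entries
  let N : ι → ι → ℕ := fun i j => Nat.card {yz : G × G // yz.1 ∈ (ConjClasses.mk (x i)).carrier ∧
        yz.2 ∈ (ConjClasses.mk (x j)).carrier ∧ yz.2 * yz.1⁻¹ ∈ (S : Subgroup G)}
  have hN : ∀ i j, (N i j : ℂ) / (p : ℂ) ^ e = u * ∑ χ : IrrCharacter G, F p D b (x i) (x j) χ :=
    fun i j => sum_F hM S hb (x i) (x j)
  have hNR : ∀ i j, MemLocalRing M ((N i j : ℂ) / (p : ℂ) ^ e) := by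
    intro i j
    rw [hN]
    exact locR_mul huR (locR_sum fun χ _ => F_mem hM (hx i) b χ)
  have hNd : ∀ i j, p ^ e ∣ N i j := by
    intro i j
    have := dvd_of_div_mem hM (n := (N i j : ℤ)) (k := e) (by push_cast; exact hNR i j)
    exact_mod_cast this
  have hNc : ∀ i j, (((N i j / p ^ e : ℕ) : ℂ)) = (N i j : ℂ) / (p : ℂ) ^ e := by
    intro i j
    rw [Nat.cast_div (hNd i j) (by push_cast; exact pow_ne_zero _ hp0)]
    push_cast
    rfl
  have hent : ∀ i j, ((N i j / p ^ e : ℕ) : ResF M) = redFun M u *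
      ∑ t : T, (c t : ResF M) * (redFun M (omega (χT t) (cls (x j))) *
        redFun M (omega (χT t) (cls (x i)⁻¹))) := by
    intro i j
    have h1 := entry hM hDn hDp S hb T (fun t => t.1) Subtype.val_injective (fun B => by
      constructor
      · rintro ⟨t, rfl⟩; exact t.2
      · intro h; exact ⟨⟨B, h⟩, rfl⟩) χT hχT c (fun t => by
        rw [← he, ← hc t]) (hx i) (hx j)
    have h2 : MemLocalRing M (∑ χ : IrrCharacter G, F p D b (x i) (x j) χ) :=
      locR_sum fun χ _ => F_mem hM (hx i) b χ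
    have h3 : ∀ t : T, MemLocalRing M ((c t : ℂ) * (omega (χT t) (cls (x j)) *
        omega (χT t) (cls (x i)⁻¹))) := fun t =>
      locR_mul (locR_natCast _) (locR_mul (omega_mem _ (cls_mem _)) (omega_mem _ (cls_mem _)))
    rw [← redFun_natCast, hNc, hN, redFun_mul huR h2,
      (redFun_eq_iff h2 (locR_sum fun t _ => h3 t)).2 h1, redFun_sum fun t _ => h3 t]
    congr 1
    refine Finset.sum_congr rfl fun t _ => ?_
    rw [redFun_mul (locR_natCast _) (locR_mul (omega_mem _ (cls_mem _)) (omega_mem _ (cls_mem _))),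
      redFun_mul (omega_mem _ (cls_mem _)) (omega_mem _ (cls_mem _)), redFun_natCast]
  have hu0 : redFun M u ≠ 0 := fun h => huI ((redFun_eq_zero_iff huR).1 h)
  have hc0 : ∀ t, (c t : ResF M) ≠ 0 := by
    intro t h
    exact hcp t ((CharP.cast_eq_zero_iff (ResF M) p _).1 h)
  rw [← RM.rank_map f, Nat.card_eq_fintype_card]
  symm
  refine RM.rank_eq_of_factor _
    (Matrix.of fun (i : ι) (t : T) => redFun M u * ((c t : ResF M) *
      redFun M (omega (χT t) (cls (x i)⁻¹))))
    (Matrix.of fun (t : T) (j : ι) => redFun M (omega (χT t) (cls (x j))))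
    (Matrix.of fun (t : T) (i : ι) => (redFun M u * (c t : ResF M))⁻¹ *
      redFun M (blockCoeff t.1 (x i)⁻¹))
    (Matrix.of fun (j : ι) (t : T) => redFun M (blockCoeff t.1 (x j))) ?_ ?_ ?_
  · ext i j
    rw [Matrix.mul_apply]
    simp only [Matrix.map_apply, Matrix.of_apply]
    rw [map_natCast]
    show ((N i j / p ^ e : ℕ) : ResF M) = _
    rw [hent, Finset.mul_sum]
    refine Finset.sum_congr rfl fun t _ => ?_
    ring
  · ext s t
    rw [Matrix.mul_apply, Matrix.one_apply]
    simp only [Matrix.of_apply]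
    have h1 := dual hM hDn hDp (fun i => (x i)⁻¹) (fun i j hij => hinj i j ?_)
      (fun g hg => ?_) s.2.1 s.2.2 (χT t)
    · have h2 : ∑ i : ι, (redFun M u * (c s : ResF M))⁻¹ * redFun M (blockCoeff s.1 (x i)⁻¹) *
          (redFun M u * ((c t : ResF M) * redFun M (omega (χT t) (cls (x i)⁻¹)))) =
          ((redFun M u * (c s : ResF M))⁻¹ * (redFun M u * (c t : ResF M))) *
          ∑ i : ι, redFun M (omega (χT t) (cls (x i)⁻¹)) * redFun M (blockCoeff s.1 (x i)⁻¹) := by
        rw [Finset.mul_sum]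
        refine Finset.sum_congr rfl fun i _ => ?_
        ring
      rw [h2, h1]
      by_cases hst : s = t
      · subst hst
        rw [if_pos rfl, if_pos (hχT s), mul_one, inv_mul_cancel₀ (mul_ne_zero hu0 (hc0 s))]
      · rw [if_neg hst, if_neg, mul_zero]
        intro h
        apply hst
        apply Subtype.ext
        exact isPBlock_eq_of_mem s.2.1 t.2.1 h (hχT t)
    · obtain ⟨a, ha⟩ := isConj_iff.1 hij
      refine isConj_iff.2 ⟨a, ?_⟩
      have := congrArg (·⁻¹) ha
      simpa [mul_assoc] using this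
    · obtain ⟨i, hi⟩ := hcov g⁻¹ (isK_inv hg)
      refine ⟨i, ?_⟩
      obtain ⟨a, ha⟩ := isConj_iff.1 hi
      refine isConj_iff.2 ⟨a, ?_⟩
      have := congrArg (·⁻¹) ha
      simpa [mul_assoc] using this
  · ext s t
    rw [Matrix.mul_apply, Matrix.one_apply]
    simp only [Matrix.of_apply]
    have h1 := dual hM hDn hDp x hinj hcov t.2.1 t.2.2 (χT s)
    rw [h1]
    by_cases hst : s = t
    · subst hst
      rw [if_pos rfl, if_pos (hχT s)]
    · rw [if_neg hst, if_neg]
      intro h
      apply hst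
      apply Subtype.ext
      exact isPBlock_eq_of_mem s.2.1 t.2.1 (hχT s) h

end H80.RB3
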