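import Cfsg.Agent.Lib.H80.RK2
import Cfsg.Agent.Lib.H80.CQ

set_option autoImplicit false
set_option linter.unusedSectionVars false
set_option linter.unusedVariables false

/-!
# Blocks of rank one
-/

namespace H80.RK3

open Cfsg H20.Loc H20.GA H20.Blk H20.Orth H20.Defect H20.Height H18.CharOrtho H18.CharBasic H80.RK
open H80.RK2 H20.NormQ
open scoped ComplexConjugate
open Classical

universe u
variable {G : Type u} [Group G] [Fintype G] {M : Ideal AlgInt} {p : ℕ}

lemma reg_one (hp : p.Prime) (θ : G → ℂ) : reg p θ 1 = θ 1 := by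
  apply reg_of
  rw [orderOf_one]; exact hp.one_lt.ne' ∘ Nat.dvd_one.1

lemma irr_one_ne (χ : IrrCharacter G) : (χ : G → ℂ) 1 ≠ 0 := by
  rw [← charDegree_irr]; exact_mod_cast charDegree_ne_zero χ

lemma reg_ne (hp : p.Prime) (χ : IrrCharacter G) : reg p (χ : G → ℂ) ≠ 0 := by
  intro h
  have := congrFun h 1
  rw [reg_one hp] at this
  exact irr_one_ne χ this

lemma rank_one_iff (hM : IsPModular p M) {B : Set (IrrCharacter G)} (hB : IsPBlock M B)
    {χ₀ : IrrCharacter G} (h₀ : χ₀ ∈ B) : blockRank p B = 1 ↔ ∀ χ ∈ B, ∀ x : G, ¬ p ∣ orderOf x →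
      (χ : G → ℂ) x = (χ : G → ℂ) 1 / (χ₀ : G → ℂ) 1 * (χ₀ : G → ℂ) x := by
  have hp := pm_prime hM
  unfold blockRank
  constructor
  · intro h χ hχ x hx
    have hfin := finrank_eq_one_iff'.1 h
    obtain ⟨v, hv, hv2⟩ := hfin
    have hmem : ∀ χ ∈ B, pRegularPart p (χ : G → ℂ) ∈
        Submodule.span ℂ ((fun χ : IrrCharacter G => pRegularPart p (χ : G → ℂ)) '' B) :=
      fun χ hχ => Submodule.subset_span ⟨χ, hχ, rfl⟩
    obtain ⟨a, ha⟩ := hv2 ⟨_, hmem χ hχ⟩
    obtain ⟨b, hb⟩ := hv2 ⟨_, hmem χ₀ h₀⟩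
    have ha' : ∀ y, a * (v : G → ℂ) y = reg p (χ : G → ℂ) y := by
      intro y
      rw [← preg_eq]
      exact congrFun (congrArg Subtype.val ha) y
    have hb' : ∀ y, b * (v : G → ℂ) y = reg p (χ₀ : G → ℂ) y := by
      intro y
      rw [← preg_eq]
      exact congrFun (congrArg Subtype.val hb) y
    have h1 := ha' 1
    have h2 := hb' 1
    have h3 := ha' x
    have h4 := hb' x
    rw [reg_one hp] at h1 h2
    rw [reg_of hx] at h3 h4
    have hb0 : b ≠ 0 := by
      rintro rfl
      rw [zero_mul] at h2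
      exact irr_one_ne χ₀ h2.symm
    have hv0 : (v : G → ℂ) 1 ≠ 0 := by
      intro h0
      rw [h0, mul_zero] at h2
      exact irr_one_ne χ₀ h2.symm
    rw [← h1, ← h2, ← h3, ← h4]
    field_simp
  · intro h
    have h1 : Submodule.span ℂ ((fun χ : IrrCharacter G => pRegularPart p (χ : G → ℂ)) '' B) =
        Submodule.span ℂ {reg p (χ₀ : G → ℂ)} := by
      apply le_antisymm
      · rw [Submodule.span_le]
        rintro _ ⟨χ, hχ, rfl⟩
        rw [SetLike.mem_coe, Submodule.mem_span_singleton]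
        refine ⟨(χ : G → ℂ) 1 / (χ₀ : G → ℂ) 1, ?_⟩
        funext x
        simp only [Pi.smul_apply, smul_eq_mul]
        rw [preg_eq]
        by_cases hx : p ∣ orderOf x
        · rw [reg_not hx, reg_not hx, mul_zero]
        · rw [reg_of hx, reg_of hx, h χ hχ x hx]
      · rw [Submodule.span_singleton_le_iff_mem]
        exact Submodule.subset_span ⟨χ₀, h₀, preg_eq _⟩
    rw [h1]
    exact finrank_span_singleton (reg_ne hp χ₀)

/-- characters of `b` inflated from the quotient by a normal `p`-subgroup -/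
lemma infl_unique (hM : IsPModular p M) (Z : Subgroup G) [Z.Normal] (hZ : IsPGroup p Z)
    (hC : ∀ x : G, ¬ p ∣ orderOf x → x ∈ Subgroup.centralizer (Z : Set G))
    (ψ : IrrCharacter (G ⧸ Z))
    (hψ : (charDegree (ψ : G ⧸ Z → ℂ)).factorization p = (Nat.card (G ⧸ Z)).factorization p)
    {b : Set (IrrCharacter G)} (hb : IsPBlock M b) (hψb : infl Z ψ ∈ b) {χ : IrrCharacter (G ⧸ Z)}
    (hχ : infl Z χ ∈ b) : χ = ψ := by
  have : Fact p.Prime := ⟨pm_prime hM⟩
  have := hM.2.1
  have : M.IsPrime := this.isPrime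
  have h1 : SameBlock M (infl Z χ : G → ℂ) (infl Z ψ : G → ℂ) := isPBlock_sameBlock hb hχ hψb
  have h2 := (H20.PC.sameBlock_infl_iff Z hM hZ hC χ ψ).2 h1
  have h3 : χ ∈ blockOf M (ψ : G ⧸ Z → ℂ) := (isPBlock_mem_iff (isPBlock_blockOf ψ)
    (mem_blockOf_self ψ) χ).2 (sameBlock_symm h2)
  rw [H20.DefZero.blockOf_eq_singleton hM hψ] at h3
  exact h3

theorem reg_prop (hM : IsPModular p M) (Z : Subgroup G) [Z.Normal] (hZ : IsPGroup p Z)
    (hC : ∀ x : G, ¬ p ∣ orderOf x → x ∈ Subgroup.centralizer (Z : Set G))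
    (ψ : IrrCharacter (G ⧸ Z))
    (hψ : (charDegree (ψ : G ⧸ Z → ℂ)).factorization p = (Nat.card (G ⧸ Z)).factorization p)
    {b : Set (IrrCharacter G)} (hb : IsPBlock M b) (hψb : infl Z ψ ∈ b) {χ : IrrCharacter G}
    (hχ : χ ∈ b) : ∃ c : ℂ, reg p (χ : G → ℂ) = c • reg p (infl Z ψ : G → ℂ) := by
  have hpf : Fact p.Prime := ⟨pm_prime hM⟩
  have : M.IsPrime := (hM.2.1).isPrime
  -- a class function on the quotient
  let f : G ⧸ Z → ℂ := fun q => if h : ¬ p ∣ orderOf q then
    (χ : G → ℂ) (H20.PC.exists_regular_lift Z q h).choose else 0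
  have hf : ∀ x : G, ¬ p ∣ orderOf x → f (x : G ⧸ Z) = (χ : G → ℂ) x := by
    intro x hx
    have h1 := H20.PC.regular_mk Z hx
    change (if h : ¬ p ∣ orderOf (x : G ⧸ Z) then _ else 0) = _
    rw [dif_pos h1]
    have h2 := (H20.PC.exists_regular_lift Z (x : G ⧸ Z) h1).choose_spec
    rw [H20.PC.eq_of_mk_eq Z hZ hC h2.2 hx h2.1]
  have hf0 : ∀ q : G ⧸ Z, p ∣ orderOf q → f q = 0 := by
    intro q hq
    change (if h : ¬ p ∣ orderOf q then _ else 0) = _
    rw [dif_neg (not_not.2 hq)]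
  have hfc : IsClassFunction (G ⧸ Z) f := by
    intro q r
    by_cases hq : p ∣ orderOf q
    · rw [hf0 q hq, hf0]
      rwa [orderOf_conj]
    · obtain ⟨x, rfl, hx⟩ := H20.PC.exists_regular_lift Z q hq
      obtain ⟨y, rfl⟩ := QuotientGroup.mk_surjective r
      rw [← mk_conj, hf x hx, hf]
      · exact irr_class χ x y
      · rwa [orderOf_conj]
  set F : G → ℂ := fun g => f (g : G ⧸ Z) with hF
  have hFc : IsClassFunction G F := by
    intro x y
    change f ((y * x * y⁻¹ : G) : G ⧸ Z) = f (x : G ⧸ Z)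
    rw [mk_conj]; exact hfc _ _
  have hFr : reg p F = reg p (χ : G → ℂ) := by
    funext x
    by_cases hx : p ∣ orderOf x
    · rw [reg_not hx, reg_not hx]
    · rw [reg_of hx, reg_of hx]; exact hf x hx
  have h1 : reg p (χ : G → ℂ) = reg p (proj b F) := by
    have h2 := proj_reg hM (isUnion_of_isPBlock hb) hFc
    have h3 := proj_reg hM (isUnion_of_isPBlock hb) (irr_class χ)
    rw [proj_irr b χ hχ] at h3
    rw [← h2, hFr, h3]
  refine ⟨classInner F (infl Z ψ : G → ℂ), ?_⟩
  rw [h1]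
  have h4 : proj b F = classInner F (infl Z ψ : G → ℂ) • (infl Z ψ : G → ℂ) := by
    funext g
    rw [proj_eq_sum, Finset.sum_eq_single (infl Z ψ)]
    · rw [if_pos hψb]; rfl
    · intro η _ hne
      by_cases hη : η ∈ b
      · rw [if_pos hη]
        -- the inner product vanishes
        have h5 : classInner F (η : G → ℂ) = 0 := by
          let _ := Fintype.ofFinite (G ⧸ Z)
          have h6 := mem_classFun_expand hfc
          have h7 : F = ∑ θ : IrrCharacter (G ⧸ Z), classInner f (θ : G ⧸ Z → ℂ) •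
              (infl Z θ : G → ℂ) := by
            funext x
            have := congrFun h6 (x : G ⧸ Z)
            rw [Finset.sum_apply] at this
            rw [Finset.sum_apply]
            exact this
          rw [h7, inner_sum_left]
          apply Finset.sum_eq_zero
          intro θ _
          rw [H18.CharOrtho.inner_smul_left, inner_irr (infl Z θ).2 η.2, if_neg, mul_zero]
          intro h8
          have h9 : infl Z θ = η := Subtype.ext h8
          rw [← h9] at hη hne
          rw [infl_unique hM Z hZ hC ψ hψ hb hψb hη] at hne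
          exact hne rfl
        rw [h5, zero_mul]
      · rw [if_neg hη]
    · intro h; exact absurd (Finset.mem_univ _) h
  rw [h4]
  funext x
  by_cases hx : p ∣ orderOf x
  · rw [reg_not hx, Pi.smul_apply, reg_not hx, smul_zero]
  · rw [reg_of hx, Pi.smul_apply, Pi.smul_apply, reg_of hx]

end H80.RK3
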