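import Cfsg.Agent.Lib.H80.RK3

set_option autoImplicit false
set_option linter.unusedSectionVars false
set_option linter.unusedVariables false

/-!
# Blocks of rank one: the Cartan invariant
-/

namespace H80.RK4

open Cfsg H20.Loc H20.GA H20.Blk H20.Orth H20.Defect H20.Height H18.CharOrtho H18.CharBasic H80.RK
open H80.RK2 H80.RK3 H20.NormQ
open scoped ComplexConjugate
open Classical

universe u
variable {G : Type u} [Group G] [Fintype G] {M : Ideal AlgInt} {p : ℕ}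

/-- the greatest common divisor of the degrees -/
lemma exists_gcd {B : Set (IrrCharacter G)} (hne : B.Nonempty) :
    ∃ g : ℕ, 0 < g ∧ (∀ χ ∈ B, g ∣ charDegree (χ : G → ℂ)) ∧ ∃ n : IrrCharacter G → ℤ,
      (∑ χ : IrrCharacter G, if χ ∈ B then n χ * (charDegree (χ : G → ℂ) : ℤ) else 0) = g := by
  let f : (IrrCharacter G → ℤ) →+ ℤ :=
    { toFun := fun n => ∑ χ : IrrCharacter G, if χ ∈ B then n χ * (charDegree (χ : G → ℂ) : ℤ) else 0
      map_zero' := by simp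
      map_add' := by
        intro a b
        rw [← Finset.sum_add_distrib]
        apply Finset.sum_congr rfl
        intro χ _
        split_ifs
        · rw [Pi.add_apply]; ring
        · rfl }
  obtain ⟨a, ha⟩ := Int.subgroup_cyclic f.range
  have hmem : ∀ χ ∈ B, (charDegree (χ : G → ℂ) : ℤ) ∈ f.range := by
    intro χ hχ
    refine ⟨Pi.single χ 1, ?_⟩
    change (∑ ψ : IrrCharacter G, if ψ ∈ B then (Pi.single χ 1 : IrrCharacter G → ℤ) ψ *
      (charDegree (ψ : G → ℂ) : ℤ) else 0) = _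
    rw [Finset.sum_eq_single χ]
    · rw [if_pos hχ, Pi.single_eq_same, one_mul]
    · intro ψ _ hψ
      rw [Pi.single_eq_of_ne hψ, zero_mul, ite_self]
    · intro h; exact absurd (Finset.mem_univ _) h
  have hdvd : ∀ χ ∈ B, a.natAbs ∣ charDegree (χ : G → ℂ) := by
    intro χ hχ
    have h1 := hmem χ hχ
    rw [ha, AddSubgroup.mem_closure_singleton] at h1
    obtain ⟨n, hn⟩ := h1
    have h2 : a ∣ (charDegree (χ : G → ℂ) : ℤ) := ⟨n, by rw [← hn, smul_eq_mul, mul_comm]⟩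
    have := Int.natAbs_dvd_natAbs.2 h2
    simpa using this
  have hmemabs : ((a.natAbs : ℕ) : ℤ) ∈ f.range := by
    have h1 : a ∈ f.range := by rw [ha]; exact AddSubgroup.subset_closure (Set.mem_singleton a)
    rcases Int.natAbs_eq a with h | h
    · rw [← h]; exact h1
    · have : ((a.natAbs : ℕ) : ℤ) = -a := by rw [h]; simp
      rw [this]; exact neg_mem h1
  refine ⟨a.natAbs, ?_, hdvd, ?_⟩
  · obtain ⟨χ, hχ⟩ := hne
    exact Nat.pos_of_dvd_of_pos (hdvd χ hχ) (Nat.pos_of_ne_zero (charDegree_ne_zero χ))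
  · obtain ⟨n, hn⟩ := hmemabs
    exact ⟨n, hn⟩

theorem rank_one (hM : IsPModular p M) {B : Set (IrrCharacter G)} (hB : IsPBlock M B)
    (hl : blockRank p B = 1) : ∃ φ : G → ℂ, ∃ d : IrrCharacter G → ℕ,
      (∃ n : IrrCharacter G → ℤ, ∀ x : G, IsPRegular p x → φ x = ∑ᶠ ψ ∈ B, (n ψ : ℂ) * (ψ : G → ℂ) x) ∧
      (∀ χ ∈ B, ∀ x : G, IsPRegular p x → (χ : G → ℂ) x = (d χ : ℂ) * φ x) ∧
      ∑ᶠ χ ∈ B, d χ ^ 2 = p ^ blockDefect p B := by
  have hp := pm_prime hM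
  obtain ⟨χ₀, h₀, hh₀⟩ := exists_height_zero hM hB
  have h1 := (rank_one_iff hM hB h₀).1 hl
  obtain ⟨g, hg, hdvd, n, hn⟩ := exists_gcd (B := B) ⟨χ₀, h₀⟩
  set d : IrrCharacter G → ℕ := fun χ => charDegree (χ : G → ℂ) / g with hd
  set φ : G → ℂ := fun x => ∑ᶠ ψ ∈ B, (n ψ : ℂ) * (ψ : G → ℂ) x with hφ
  have hgC : (g : ℂ) ≠ 0 := by exact_mod_cast hg.ne'
  have hdg : ∀ χ ∈ B, (d χ : ℂ) * g = (χ : G → ℂ) 1 := by
    intro χ hχ
    rw [← charDegree_irr]
    have := Nat.div_mul_cancel (hdvd χ hχ)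
    exact_mod_cast this
  have hφx : ∀ x : G, ¬ p ∣ orderOf x → φ x = (g : ℂ) / (χ₀ : G → ℂ) 1 * (χ₀ : G → ℂ) x := by
    intro x hx
    rw [hφ]
    simp only
    rw [fsum_mem]
    have h2 : ∀ ψ : IrrCharacter G, (if ψ ∈ B then (n ψ : ℂ) * (ψ : G → ℂ) x else 0) =
        ((if ψ ∈ B then n ψ * (charDegree (ψ : G → ℂ) : ℤ) else 0 : ℤ) : ℂ) *
          ((χ₀ : G → ℂ) x / (χ₀ : G → ℂ) 1) := by
      intro ψ
      split_ifs with hψ
      · rw [h1 ψ hψ x hx]
        push_cast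
        rw [charDegree_irr]
        ring
      · simp
    rw [Finset.sum_congr rfl (fun ψ _ => h2 ψ), ← Finset.sum_mul]
    have h3 : (∑ ψ : IrrCharacter G, ((if ψ ∈ B then n ψ * (charDegree (ψ : G → ℂ) : ℤ) else 0 : ℤ) : ℂ))
        = (g : ℂ) := by exact_mod_cast congrArg (fun z : ℤ => (z : ℂ)) hn
    rw [h3]; ring
  have hχφ : ∀ χ ∈ B, ∀ x : G, ¬ p ∣ orderOf x → (χ : G → ℂ) x = (d χ : ℂ) * φ x := by
    intro χ hχ x hx
    rw [hφx x hx, h1 χ hχ x hx, ← hdg χ hχ]; ring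
  refine ⟨φ, d, ⟨n, fun x _ => rfl⟩, hχφ, ?_⟩
  -- the Cartan invariant
  set c : ℂ := classInner (reg p φ) (reg p φ) with hc
  have hreg : ∀ χ ∈ B, reg p (χ : G → ℂ) = (d χ : ℂ) • reg p φ := by
    intro χ hχ
    funext x
    rw [Pi.smul_apply]
    by_cases hx : p ∣ orderOf x
    · rw [reg_not hx, reg_not hx, smul_zero]
    · rw [reg_of hx, reg_of hx, hχφ χ hχ x hx]; rfl
  have ham : ∀ χ ∈ B, ∀ ψ ∈ B, am p χ ψ = (d χ : ℂ) * (d ψ : ℂ) * c := by
    intro χ hχ ψ hψ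
    have : am p χ ψ = classInner (reg p (χ : G → ℂ)) (reg p (ψ : G → ℂ)) := by
      rw [← inner_reg_left, reg_reg]; rfl
    rw [this, hreg χ hχ, hreg ψ hψ, H18.CharOrtho.inner_smul_left, H18.CharOrtho.inner_smul_right]
    simp only [Complex.conj_natCast]
    ring
  have hsum : (∑ χ : IrrCharacter G, if χ ∈ B then (d χ : ℂ) ^ 2 else 0) * c = 1 := by
    have h2 := rank_eq_sum hM hB
    rw [hl] at h2
    rw [Finset.sum_mul, ← Nat.cast_one, h2]
    apply Finset.sum_congr rfl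
    intro χ _
    split_ifs with hχ
    · rw [ham χ hχ χ hχ]; ring
    · simp
  -- Bezout
  have hbez : (∑ χ : IrrCharacter G, if χ ∈ B then n χ * (d χ : ℤ) else 0) = 1 := by
    have h2 : (∑ χ : IrrCharacter G, if χ ∈ B then n χ * (d χ : ℤ) else 0) * g = 1 * g := by
      rw [one_mul, Finset.sum_mul]
      conv_rhs => rw [← hn]
      apply Finset.sum_congr rfl
      intro χ _
      split_ifs with hχ
      · have h3 : (charDegree (χ : G → ℂ) : ℤ) = (d χ : ℤ) * g := by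
          exact_mod_cast (Nat.div_mul_cancel (hdvd χ hχ)).symm
        rw [h3]; ring
      · simp
    exact mul_right_cancel₀ (by exact_mod_cast hg.ne') h2
  -- integrality
  set D := blockDefect p B with hD
  have hint : ∃ m : ℤ, (p : ℂ) ^ D * c = m := by
    have h2 : ∀ χ : IrrCharacter G, ∃ a : IrrCharacter G → ℤ, χ ∈ B → ∀ ψ ∈ B,
        (p : ℂ) ^ D * ((d χ : ℂ) * (d ψ : ℂ) * c) = a ψ := by
      intro χ
      by_cases hχ : χ ∈ B
      · obtain ⟨a, ha, -⟩ := H81.RegMat.exists_row hM hB hχ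
        refine ⟨a, fun _ ψ hψ => ?_⟩
        rw [← ham χ hχ ψ hψ]; exact ha ψ
      · exact ⟨0, fun h => absurd h hχ⟩
    choose a ha using h2
    refine ⟨∑ χ : IrrCharacter G, ∑ ψ : IrrCharacter G,
      if χ ∈ B ∧ ψ ∈ B then n χ * n ψ * a χ ψ else 0, ?_⟩
    have h3 : (p : ℂ) ^ D * c = (p : ℂ) ^ D * c *
        ((∑ χ : IrrCharacter G, if χ ∈ B then n χ * (d χ : ℤ) else 0 : ℤ) : ℂ) *
        ((∑ χ : IrrCharacter G, if χ ∈ B then n χ * (d χ : ℤ) else 0 : ℤ) : ℂ) := by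
      rw [hbez]; simp
    rw [h3]
    push_cast
    rw [mul_assoc, Finset.sum_mul_sum, Finset.mul_sum]
    apply Finset.sum_congr rfl
    intro χ _
    rw [Finset.mul_sum]
    apply Finset.sum_congr rfl
    intro ψ _
    by_cases hχ : χ ∈ B
    · by_cases hψ : ψ ∈ B
      · rw [if_pos hχ, if_pos hψ, if_pos ⟨hχ, hψ⟩]
        push_cast
        rw [← ha χ hχ ψ hψ]; ring
      · have h9 : ¬ (χ ∈ B ∧ ψ ∈ B) := fun h => hψ h.2
        rw [if_neg hψ, if_neg h9]; simp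
    · have h9 : ¬ (χ ∈ B ∧ ψ ∈ B) := fun h => hχ h.1
      rw [if_neg hχ, if_neg h9]; simp
  obtain ⟨m, hm⟩ := hint
  -- `m` is prime to `p`
  have hmp : ¬ (p : ℤ) ∣ m := by
    obtain ⟨a, ha, -, -, ha4, -⟩ := H81.RegMat.exists_row hM hB h₀
    have h2 := ha4 χ₀ h₀ hh₀
    rw [hh₀, zero_add, pow_one] at h2
    have h3 : (a χ₀ : ℂ) = (m * (d χ₀ : ℤ) ^ 2 : ℤ) := by
      rw [← ha χ₀]
      push_cast
      rw [← hm]
      change (p : ℂ) ^ D * am p χ₀ χ₀ = _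
      rw [ham χ₀ h₀ χ₀ h₀]; ring
    have h4 : a χ₀ = m * (d χ₀ : ℤ) ^ 2 := by exact_mod_cast h3
    rw [h4] at h2
    intro h5
    exact h2 (h5.mul_right _)
  set S : ℕ := ∑ χ : IrrCharacter G, if χ ∈ B then d χ ^ 2 else 0 with hS
  have hSC : (S : ℂ) = ∑ χ : IrrCharacter G, if χ ∈ B then (d χ : ℂ) ^ 2 else 0 := by
    rw [hS]; push_cast; rfl
  have h5 : (S : ℤ) * m = (p : ℤ) ^ D := by
    have h6 : (S : ℂ) * m = (p : ℂ) ^ D := by
      rw [← hm, hSC, mul_left_comm, hsum, mul_one]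
    exact_mod_cast h6
  have h6 : m.natAbs = 1 := by
    have h7 : m.natAbs ∣ p ^ D := by
      have : (m.natAbs : ℤ) ∣ (p : ℤ) ^ D := by
        rw [Int.natAbs_dvd]; exact ⟨S, by rw [← h5, mul_comm]⟩
      exact_mod_cast this
    obtain ⟨k, -, hk⟩ := (Nat.dvd_prime_pow hp).1 h7
    rcases Nat.eq_zero_or_pos k with h8 | h8
    · rw [h8, pow_zero] at hk; exact hk
    · exfalso
      apply hmp
      rw [← Int.dvd_natAbs, hk]
      exact_mod_cast dvd_pow_self p h8.ne'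
  rw [fsum_mem]
  have h7 : (0 : ℤ) ≤ S := Int.natCast_nonneg _
  have h8 : 0 < (p : ℤ) ^ D := by exact_mod_cast pow_pos hp.pos D
  rcases Int.natAbs_eq_iff.1 h6 with h9 | h9
  · rw [h9] at h5
    have : (S : ℤ) = ((p ^ D : ℕ) : ℤ) := by push_cast; rw [← h5]; simp
    exact_mod_cast this
  · rw [h9] at h5
    push_cast at h5
    nlinarith

end H80.RK4
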