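import Mathlib.LinearAlgebra.Matrix.Rank
import Mathlib.LinearAlgebra.Dimension.Constructions

set_option autoImplicit false

/-!
# Rank of a matrix and field extensions
-/

namespace H80.RM

variable {F K : Type*} [Field F] [Field K] {m n : Type*} [Fintype m] [Fintype n]
  [DecidableEq m] [DecidableEq n]

/-- rank factorization -/
theorem exists_factor (A : Matrix m n F) : ∃ (P : Matrix m (Fin A.rank) F)
    (Q : Matrix (Fin A.rank) n F) (L : Matrix (Fin A.rank) m F) (R : Matrix n (Fin A.rank) F),
    A = P * Q ∧ L * P = 1 ∧ Q * R = 1 := by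
  classical
  let T : (n → F) →ₗ[F] (m → F) := A.mulVecLin
  let W := LinearMap.range T
  have hW : Module.finrank F W = A.rank := rfl
  let b : Module.Basis (Fin A.rank) F W := Module.finBasisOfFinrankEq F W hW
  let e : W ≃ₗ[F] (Fin A.rank → F) := b.equivFun
  let P0 : (Fin A.rank → F) →ₗ[F] (m → F) := W.subtype ∘ₗ e.symm.toLinearMap
  let Q0 : (n → F) →ₗ[F] (Fin A.rank → F) := e.toLinearMap ∘ₗ T.rangeRestrict
  have hP : Function.Injective P0 := W.subtype_injective.comp e.symm.injective
  have hQ : Function.Surjective Q0 := e.surjective.comp T.surjective_rangeRestrict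
  obtain ⟨L0, hL0⟩ := P0.exists_leftInverse_of_injective (LinearMap.ker_eq_bot.2 hP)
  obtain ⟨R0, hR0⟩ := Q0.exists_rightInverse_of_surjective (LinearMap.range_eq_top.2 hQ)
  have hT : P0 ∘ₗ Q0 = T := by
    ext v
    simp [P0, Q0]
  refine ⟨LinearMap.toMatrix' P0, LinearMap.toMatrix' Q0, LinearMap.toMatrix' L0,
    LinearMap.toMatrix' R0, ?_, ?_, ?_⟩
  · rw [← LinearMap.toMatrix'_comp, hT]
    show A = LinearMap.toMatrix' A.mulVecLin
    rw [← Matrix.toLin'_apply', LinearMap.toMatrix'_toLin']
  · rw [← LinearMap.toMatrix'_comp, hL0, LinearMap.toMatrix'_id]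
  · rw [← LinearMap.toMatrix'_comp, hR0, LinearMap.toMatrix'_id]

omit [DecidableEq m] [DecidableEq n] in
theorem rank_eq_of_factor {r : Type*} [Fintype r] [DecidableEq r] (A : Matrix m n F)
    (P : Matrix m r F) (Q : Matrix r n F) (L : Matrix r m F) (R : Matrix n r F)
    (h : A = P * Q) (hL : L * P = 1) (hR : Q * R = 1) : A.rank = Fintype.card r := by
  apply le_antisymm
  · rw [h]
    exact (Matrix.rank_mul_le_left P Q).trans (Matrix.rank_le_card_width P)
  · have h1 : L * A * R = 1 := by
      rw [h, ← Matrix.mul_assoc, hL, Matrix.one_mul, hR]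
    have h2 : (1 : Matrix r r F).rank = Fintype.card r := Matrix.rank_one
    rw [← h2, ← h1]
    exact (Matrix.rank_mul_le_left _ _).trans (Matrix.rank_mul_le_right _ _)

theorem rank_map (f : F →+* K) (A : Matrix m n F) : (A.map f).rank = A.rank := by
  obtain ⟨P, Q, L, R, h, hL, hR⟩ := exists_factor A
  have h1 : (A.map f).rank = Fintype.card (Fin A.rank) := by
    refine rank_eq_of_factor (A.map f) (P.map f) (Q.map f) (L.map f) (R.map f) ?_ ?_ ?_
    · rw [← Matrix.map_mul, ← h]
    · rw [← Matrix.map_mul, hL, Matrix.map_one _ (map_zero f) (map_one f)]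
    · rw [← Matrix.map_mul, hR, Matrix.map_one _ (map_zero f) (map_one f)]
  rw [h1, Fintype.card_fin]

end H80.RM
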