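import Cfsg.Agent.Lib.H80.SU4
import Cfsg.Agent.Lib.H80.GO
import Cfsg.Prelude.Def_BlockRank

set_option autoImplicit false
set_option linter.unusedSectionVars false
set_option linter.unusedVariables false
set_option linter.style.haveILetI false

/-!
# Blocks with abelian defect group and normal subgroups of `p`-power index
-/

namespace H80.SU5

open Cfsg MonoidAlgebra H20.Loc H20.GA H20.Blk H20.Orth H20.NormQ H20.Ind
open H80.GA H80.GB H80.GC H80.GD H80.GE H80.GH H80.GJ H80.GV H80.BR1 H80.BR2 H80.BR3 H80.BR4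
open H80.SU1 H80.SU2 H80.SU3 H80.SU4
open scoped Pointwise ComplexConjugate

universe u
variable {G : Type u} [Group G] [Fintype G] {M : Ideal AlgInt} {p : ℕ} {P : Subgroup G}

section setup
variable [M.IsMaximal] [Fact p.Prime] [CharP (ResF M) p] [Algebra (ZMod p) (ResF M)]
    [Algebra.IsAlgebraic (ZMod p) (ResF M)] [IsAlgClosed (ResF M)]
variable (N : Subgroup G) [N.Normal] [Fintype N] {b : Set (IrrCharacter N)}
  {B : Set (IrrCharacter G)}

lemma top_le : (⊤ : Subgroup G) ≤ Subgroup.normalizer (N : Set G) := by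
  rw [Subgroup.normalizer_eq_top]

lemma index_top {n : ℕ} (h : N.index = p ^ n) : (N.subgroupOf ⊤).index = p ^ n := by
  rw [← h]
  show N.relIndex ⊤ = _
  exact Subgroup.relIndex_top_right N

theorem ebar_eq (hM : IsPModular p M) {n : ℕ} (hNi : N.index = p ^ n) (hb : IsPBlock M b)
    (hstab : ∀ g : G, StabilizesBlock N b g) (hB : IsPBlock M B)
    (hcov : ∃ χ ∈ B, ∃ θ ∈ b, classInner (fun n : N => (χ : G → ℂ) n) (θ : N → ℂ) ≠ 0) :
    ebar M B = bl M N b := by
  have h1 : bl M N b ∈ Fx (ResF M) (⊤ : Subgroup G) := fun g _ => ((stabilizes_iff hb).1 (hstab g)).2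
  have h2 := BR6.isBlk_pindex hM le_top (top_le N) (index_top N hNi) (isBlk_bl hb) h1
  exact blk_eq_of_mul_ne (isBlk_ebar hB) h2 ((BR6.cov_iff hB hb).1 hcov)

theorem exists_d (hM : IsPModular p M) {n : ℕ} (hNi : N.index = p ^ n) (hb : IsPBlock M b)
    (hB : IsPBlock M B) (heq : ebar M B = bl M N b) (hPD : IsDefectGroup p M B P) :
    ∀ t : G, ∃ d ∈ P, d⁻¹ * t ∈ N := by
  intro t
  exact GQ.sylow_pindex le_top (top_le N) (index_top N hNi) (isBlk_bl hb)
    (heq ▸ isBlk_ebar hB) (heq ▸ (isDefectGroup_iff_isDef hM hB).1 hPD) t (Subgroup.mem_top t)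

theorem def_inter' (hM : IsPModular p M) (hb : IsPBlock M b)
    (hB : IsPBlock M B) (heq : ebar M B = bl M N b) (hPD : IsDefectGroup p M B P) :
    IsDefectGroup p M b ((P ⊓ N).subgroupOf N) := by
  have hdef := (isDefectGroup_iff_isDef hM hB).1 hPD
  have h1 : bl M N b ∈ Fx (ResF M) P := by
    rw [← heq]
    exact Fx_mono le_top (isBlk_ebar hB).mem.1
  have h2 := GO.def_inter le_top (top_le N) (isBlk_ebar hB) (isBlk_bl hb) hdef h1 (by
    rw [← heq, (isBlk_ebar hB).idem]; exact hdef.ne)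
  rw [BR5.defect_sub hM hb, inf_assoc, inf_idem]
  exact h2

lemma mem_of_reg {n : ℕ} (hNi : N.index = p ^ n) {y : G} (hy : ¬ p ∣ orderOf y) :
    y ∈ N :=
  BR6.mem_of_pregular (top_le N) (index_top N hNi) Fact.out (Subgroup.mem_top y) hy

theorem res_irr (hM : IsPModular p M) {n : ℕ} (hNi : N.index = p ^ n) (hb : IsPBlock M b)
    (hB : IsPBlock M B) (heq : ebar M B = bl M N b) (hPD : IsDefectGroup p M B P)
    (hab : ∀ x ∈ P, ∀ y ∈ P, x * y = y * x) {χ : IrrCharacter G} (hχ : χ ∈ B) :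
    IsIrrCharacter N (fun n : N => (χ : G → ℂ) n) := by
  have hd := exists_d N hM hNi hb hB heq hPD
  have hcomm : ∀ a b : G ⧸ N, a * b = b * a := by
    intro a b
    obtain ⟨x, rfl⟩ := QuotientGroup.mk_surjective a
    obtain ⟨y, rfl⟩ := QuotientGroup.mk_surjective b
    obtain ⟨d, hd1, hd2⟩ := hd x
    obtain ⟨d', hd1', hd2'⟩ := hd y
    have h1 : (QuotientGroup.mk x : G ⧸ N) = QuotientGroup.mk d := (QuotientGroup.eq.2 hd2).symm
    have h2 : (QuotientGroup.mk y : G ⧸ N) = QuotientGroup.mk d' := (QuotientGroup.eq.2 hd2').symm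
    rw [h1, h2, ← QuotientGroup.mk_mul, ← QuotientGroup.mk_mul, hab d hd1 d' hd1']
  refine H18.CharOrtho.isIrr_of_norm_one (H18.CharBasic.isCharacter_restrict N
    (H18.CharBasic.isCharacter_of_isIrr χ.2)) ?_
  apply res_norm N hcomm χ
  rintro l ⟨x, hx⟩
  by_contra! hno
  obtain ⟨g, rfl⟩ := QuotientGroup.mk_surjective x
  obtain ⟨d, hd1, hd2⟩ := hd g
  have h1 : (QuotientGroup.mk g : G ⧸ N) = QuotientGroup.mk d := (QuotientGroup.eq.2 hd2).symm
  rw [h1] at hx
  refine twist_ne hM hB hPD hab hχ hd1 hx fun y hy => ?_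
  have hyN := mem_of_reg N hNi hy
  have h2 : ((d * y : G) : G ⧸ N) = (d : G ⧸ N) := by
    rw [QuotientGroup.eq]
    have : (d * y)⁻¹ * d = y⁻¹ := by group
    rw [this]
    exact N.inv_mem hyN
  have h3 := hno (d * y)
  rw [h2] at h3
  exact h3.symm

theorem res_mem (hM : IsPModular p M) {n : ℕ} (hNi : N.index = p ^ n) (hb : IsPBlock M b)
    (hB : IsPBlock M B) (heq : ebar M B = bl M N b) (hPD : IsDefectGroup p M B P)
    (hab : ∀ x ∈ P, ∀ y ∈ P, x * y = y * x) {χ : IrrCharacter G} (hχ : χ ∈ B) :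
    ∃ θ ∈ b, ∀ n : N, (χ : G → ℂ) n = (θ : N → ℂ) n := by
  haveI := pm_isPrime hM
  let θ : IrrCharacter N := ⟨fun n : N => (χ : G → ℂ) n, res_irr N hM hNi hb hB heq hPD hab hχ⟩
  refine ⟨θ, ?_, fun n => rfl⟩
  have h1 : classInner (fun n : N => (χ : G → ℂ) n) (θ : N → ℂ) ≠ 0 := by
    show classInner (θ : N → ℂ) (θ : N → ℂ) ≠ 0
    rw [H18.CharOrtho.inner_irr_self θ.2]; exact one_ne_zero
  have h2 := (BR6.cov_iff hB (isPBlock_blockOf (M := M) θ)).1 ⟨χ, hχ, θ, mem_blockOf_self θ, h1⟩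
  rw [heq] at h2
  have h3 := blk_eq_of_mul_ne (isBlk_bl hb) (isBlk_bl (isPBlock_blockOf θ)) h2
  have h4 := bl_inj hb (isPBlock_blockOf θ) h3
  rw [h4]
  exact mem_blockOf_self θ

theorem over_mem (hM : IsPModular p M) (hb : IsPBlock M b)
    (hB : IsPBlock M B) (heq : ebar M B = bl M N b) {θ : IrrCharacter N} (hθ : θ ∈ b)
    {χ : IrrCharacter G} (h : classInner (fun n : N => (χ : G → ℂ) n) (θ : N → ℂ) ≠ 0) : χ ∈ B := by
  haveI := pm_isPrime hM
  have h2 := (BR6.cov_iff (isPBlock_blockOf (M := M) χ) hb).1 ⟨χ, mem_blockOf_self χ, θ, hθ, h⟩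
  rw [← heq] at h2
  have h3 := blk_eq_of_mul_ne (isBlk_ebar (isPBlock_blockOf χ)) (isBlk_ebar hB) h2
  have h4 := ebar_inj (isPBlock_blockOf χ) hB h3
  rw [← h4]
  exact mem_blockOf_self χ

theorem card_ext (hM : IsPModular p M) {n : ℕ} (hNi : N.index = p ^ n) (hb : IsPBlock M b)
    (hB : IsPBlock M B) (heq : ebar M B = bl M N b) (hPD : IsDefectGroup p M B P)
    (hab : ∀ x ∈ P, ∀ y ∈ P, x * y = y * x) {θ : IrrCharacter N} (hθ : θ ∈ b) :
    Nat.card {χ : IrrCharacter G // χ ∈ B ∧ ∀ n : N, (χ : G → ℂ) n = (θ : N → ℂ) n} = N.index := by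
  classical
  letI := Fintype.ofFinite (IrrCharacter G)
  have hcl := H18.CharInd.isClassFunction_indFun N (θ : N → ℂ)
  have h1 := congrFun (H18.CharOrtho.mem_classFun_expand hcl) 1
  rw [H18.CharInd.indFun_one, Finset.sum_apply] at h1
  have hθ1 : (θ : N → ℂ) 1 ≠ 0 := H18.CharBasic.irr_one_ne_zero θ.2
  have h2 : ∀ χ : IrrCharacter G, (classInner (indFun N (θ : N → ℂ)) (χ : G → ℂ) • (χ : G → ℂ)) 1 =
      if (χ ∈ B ∧ ∀ n : N, (χ : G → ℂ) n = (θ : N → ℂ) n) then (θ : N → ℂ) 1 else 0 := by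
    intro χ
    rw [H18.CharInd.frobenius N _ (H18.CharBasic.isClassFunction_of_isIrr χ.2), Pi.smul_apply, smul_eq_mul]
    have hsymm : classInner (θ : N → ℂ) (fun n : N => (χ : G → ℂ) n) =
        conj (classInner (fun n : N => (χ : G → ℂ) n) (θ : N → ℂ)) :=
      (H18.CharOrtho.inner_conj_symm _ _).symm
    split_ifs with h
    · have h3 : (fun n : N => (χ : G → ℂ) n) = (θ : N → ℂ) := funext h.2
      rw [h3, H18.CharOrtho.inner_irr_self θ.2, one_mul]
      exact h.2 1
    · have h3 : classInner (fun n : N => (χ : G → ℂ) n) (θ : N → ℂ) = 0 := by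
        by_contra hne
        apply h
        have hχB := over_mem N hM hb hB heq hθ hne
        refine ⟨hχB, ?_⟩
        have hirr := res_irr N hM hNi hb hB heq hPD hab hχB
        by_contra hno
        apply hne
        apply H18.CharOrtho.inner_irr_ne hirr θ.2
        intro heq'
        exact hno fun n => congrFun heq' n
      rw [hsymm, h3, map_zero, zero_mul]
  rw [Finset.sum_congr rfl fun χ _ => h2 χ, ← Finset.sum_filter, Finset.sum_const,
    nsmul_eq_mul] at h1
  have h4 := mul_right_cancel₀ hθ1 h1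
  rw [Nat.card_eq_fintype_card, Fintype.card_subtype]
  exact_mod_cast h4.symm

theorem card_eq (hM : IsPModular p M) {n : ℕ} (hNi : N.index = p ^ n) (hb : IsPBlock M b)
    (hB : IsPBlock M B) (heq : ebar M B = bl M N b) (hPD : IsDefectGroup p M B P)
    (hab : ∀ x ∈ P, ∀ y ∈ P, x * y = y * x) : Nat.card B = N.index * Nat.card b := by
  classical
  letI := Fintype.ofFinite (IrrCharacter G)
  letI := Fintype.ofFinite (IrrCharacter N)
  choose f hf1 hf2 using fun χ : B => res_mem N hM hNi hb hB heq hPD hab χ.2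
  let F : B → b := fun χ => ⟨f χ, hf1 χ⟩
  have h1 : Nat.card B = Nat.card (Σ θ : b, {χ : B // F χ = θ}) :=
    Nat.card_congr (Equiv.sigmaFiberEquiv F).symm
  rw [h1, Nat.card_sigma]
  have h2 : ∀ θ : b, Nat.card {χ : B // F χ = θ} = N.index := by
    intro θ
    rw [← card_ext N hM hNi hb hB heq hPD hab θ.2]
    apply Nat.card_congr
    refine ⟨fun χ => ⟨χ.1.1, χ.1.2, fun n => ?_⟩, fun χ => ⟨⟨χ.1, χ.2.1⟩, ?_⟩, ?_, ?_⟩
    · rw [hf2 χ.1]
      exact congrFun (congrArg (fun θ : b => (θ.1 : N → ℂ)) χ.2) n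
    · apply Subtype.ext
      apply Subtype.ext
      funext n
      show (f ⟨χ.1, χ.2.1⟩ : N → ℂ) n = (θ.1 : N → ℂ) n
      rw [← hf2, χ.2.2]
    · intro χ; rfl
    · intro χ; rfl
  rw [Finset.sum_congr rfl fun θ _ => h2 θ, Finset.sum_const, Finset.card_univ, smul_eq_mul,
    mul_comm, Nat.card_eq_fintype_card]

theorem rank_eq (hM : IsPModular p M) {n : ℕ} (hNi : N.index = p ^ n) (hb : IsPBlock M b)
    (hB : IsPBlock M B) (heq : ebar M B = bl M N b) (hPD : IsDefectGroup p M B P)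
    (hab : ∀ x ∈ P, ∀ y ∈ P, x * y = y * x) : blockRank p B = blockRank p b := by
  classical
  -- extension by zero
  let E : (N → ℂ) →ₗ[ℂ] (G → ℂ) :=
    { toFun := fun f g => if h : g ∈ N then f ⟨g, h⟩ else 0
      map_add' := by
        intro f g
        funext x
        simp only [Pi.add_apply]
        split_ifs <;> simp
      map_smul' := by
        intro c f
        funext x
        simp only [Pi.smul_apply, RingHom.id_apply, smul_eq_mul]
        split_ifs <;> simp }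
  have hE : ∀ (f : N → ℂ) (n : N), E f (n : G) = f n := by
    intro f n
    show (if h : (n : G) ∈ N then f ⟨n, h⟩ else 0) = f n
    rw [dif_pos n.2]
  have hE0 : ∀ (f : N → ℂ) (g : G), g ∉ N → E f g = 0 := by
    intro f g hg
    show (if h : g ∈ N then f ⟨g, h⟩ else 0) = 0
    rw [dif_neg hg]
  have hinj : Function.Injective E := by
    intro f g h
    funext n
    rw [← hE f, ← hE g, h]
  have hkey : ∀ (χ : IrrCharacter G) (θ : IrrCharacter N), (∀ n : N, (χ : G → ℂ) n = (θ : N → ℂ) n) →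
      E (pRegularPart p (θ : N → ℂ)) = pRegularPart p (χ : G → ℂ) := by
    intro χ θ h
    funext g
    by_cases hg : g ∈ N
    · have h1 := hE (pRegularPart p (θ : N → ℂ)) ⟨g, hg⟩
      have h1' : E (pRegularPart p (θ : N → ℂ)) g = pRegularPart p (θ : N → ℂ) ⟨g, hg⟩ := h1
      rw [h1']
      unfold pRegularPart
      have h2 : IsPRegular p (⟨g, hg⟩ : N) ↔ IsPRegular p g := by
        unfold IsPRegular
        rw [← Subgroup.orderOf_coe]
      by_cases h3 : IsPRegular p g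
      · rw [if_pos h3, if_pos (h2.2 h3), ← h]
      · rw [if_neg h3, if_neg (fun h => h3 (h2.1 h))]
    · rw [hE0 _ _ hg]
      unfold pRegularPart
      rw [if_neg]
      intro h3
      exact hg (mem_of_reg N hNi h3)
  have hset : (fun χ : IrrCharacter G => pRegularPart p (χ : G → ℂ)) '' B =
      E '' ((fun θ : IrrCharacter N => pRegularPart p (θ : N → ℂ)) '' b) := by
    ext f
    constructor
    · rintro ⟨χ, hχ, rfl⟩
      obtain ⟨θ, hθ, h⟩ := res_mem N hM hNi hb hB heq hPD hab hχ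
      exact ⟨_, ⟨θ, hθ, rfl⟩, hkey χ θ h⟩
    · rintro ⟨_, ⟨θ, hθ, rfl⟩, rfl⟩
      have h1 := card_ext N hM hNi hb hB heq hPD hab hθ
      have h2 : 0 < Nat.card {χ : IrrCharacter G // χ ∈ B ∧
          ∀ n : N, (χ : G → ℂ) n = (θ : N → ℂ) n} := by
        rw [h1, hNi]; exact pow_pos (pm_prime hM).pos _
      obtain ⟨⟨χ, hχ, h⟩⟩ := (Nat.card_pos_iff.1 h2).1
      exact ⟨χ, hχ, (hkey χ θ h).symm⟩
  unfold blockRank
  rw [hset, ← Submodule.map_span]
  exact (LinearEquiv.finrank_eq (Submodule.equivMapOfInjective E hinj _)).symm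

end setup

end H80.SU5
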