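import Cfsg.Agent.Lib.H80.SU8
import Cfsg.Agent.Lib.H19.SylowAux

set_option autoImplicit false
set_option linter.unusedSectionVars false
set_option linter.unusedVariables false
set_option linter.style.haveILetI false

/-!
# The trace formula as a sum over subsections, and over an abelian defect group
-/

namespace H80.SU9

open Cfsg MonoidAlgebra H20.Loc H20.GA H20.Blk H20.Orth H80.SU6 H80.SU7 H80.SU8
open H80.GA H80.GB H80.GC H80.GD H80.GE H80.GH H80.GJ H80.BR1 H80.BR2 H80.BR3 H80.BR4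
open H80.SU1
open scoped ComplexConjugate

universe u
variable {G : Type u} [Group G] [Fintype G] {M : Ideal AlgInt} {p : ℕ}

/-- centralizer of an element -/
abbrev Cx (x : G) : Subgroup G := Subgroup.centralizer ({x} : Set G)

noncomputable instance (x : G) : Fintype (Cx x) := Fintype.ofFinite _

/-- subsections of `B` -/
abbrev Om (p : ℕ) (M : Ideal AlgInt) (B : Set (IrrCharacter G)) : Type u :=
  Σ x : {x : G // ∃ k : ℕ, orderOf x = p ^ k}, {b : Set (IrrCharacter (Cx x.1)) //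
    IsInducedBlock M (Cx x.1) b B}

noncomputable instance instFX : Fintype {x : G // ∃ k : ℕ, orderOf x = p ^ k} := Fintype.ofFinite _

noncomputable instance instFB (x : G) (B : Set (IrrCharacter G)) :
    Fintype {b : Set (IrrCharacter (Cx x)) // IsInducedBlock M (Cx x) b B} := Fintype.ofFinite _

open Classical in
theorem trace_G (hM : IsPModular p M) {B : Set (IrrCharacter G)} (hB : IsPBlock M B)
    [Fintype (IrrCharacter G)]
    (St : IrrCharacter G → G → ℂ) (Λ : ∀ x : G, Set (IrrCharacter (Cx x)) → ℂ)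
    (hSt : ∀ χ ∈ B, ∀ x : G, (∃ k : ℕ, orderOf x = p ^ k) → ∀ y : Cx x, ¬ p ∣ orderOf y →
      St χ (x * y) = ∑ b ∈ Bl M (Cx x), Λ x b * blockPart b (tr (Cx x) x (χ : G → ℂ)) y) :
    ∑ g : G, ∑ χ : IrrCharacter G, (if χ ∈ B then St χ g * conj ((χ : G → ℂ) g) else 0) =
      ∑ w : Om p M B, Λ w.1.1 w.2.1 * ((Nat.card (Cx w.1.1) : ℂ) * (blockRank p w.2.1 : ℂ)) := by
  letI : ∀ x : G, Fintype (IrrCharacter (Cx x)) := fun x => Fintype.ofFinite _
  rw [sum_parts (pm_prime hM)]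
  have h1 : ∀ x : G, (∃ k : ℕ, orderOf x = p ^ k) →
      ∑ y : Cx x, (if p ∣ orderOf y then 0 else ∑ χ : IrrCharacter G,
        (if χ ∈ B then St χ (x * y) * conj ((χ : G → ℂ) (x * y)) else 0)) =
      ∑ b ∈ Bl M (Cx x), if IsInducedBlock M (Cx x) b B then
        Λ x b * ((Nat.card (Cx x) : ℂ) * (blockRank p b : ℂ)) else 0 := by
    intro x hx
    rw [← trace_x hM rfl hx hB (Λ x)]
    refine Finset.sum_congr rfl fun y _ => ?_
    split_ifs with hy
    · rfl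
    · refine Finset.sum_congr rfl fun χ _ => ?_
      split_ifs with hχ
      · rw [hSt χ hχ x hx y hy]
      · rfl
  have h2 : ∀ x : G, (if (∃ k : ℕ, orderOf x = p ^ k) then
      ∑ y : Cx x, (if p ∣ orderOf y then 0 else ∑ χ : IrrCharacter G,
        (if χ ∈ B then St χ (x * y) * conj ((χ : G → ℂ) (x * y)) else 0)) else 0) =
      if (∃ k : ℕ, orderOf x = p ^ k) then (∑ b ∈ Bl M (Cx x), if IsInducedBlock M (Cx x) b B then
        Λ x b * ((Nat.card (Cx x) : ℂ) * (blockRank p b : ℂ)) else 0) else 0 := by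
    intro x
    split_ifs with hx
    · exact h1 x hx
    · rfl
  refine (Finset.sum_congr rfl fun x _ => h2 x).trans ?_
  rw [Fintype.sum_sigma]
  have h3 : ∀ F : G → ℂ, ∑ x : G, (if (∃ k : ℕ, orderOf x = p ^ k) then F x else 0) =
      ∑ x : {x : G // ∃ k : ℕ, orderOf x = p ^ k}, F x.1 := by
    intro F
    rw [← Finset.sum_filter]
    symm
    refine Finset.sum_bij (fun x _ => x.1) ?_ ?_ ?_ ?_
    · intro x _
      rw [Finset.mem_filter]; exact ⟨Finset.mem_univ _, x.2⟩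
    · intro x _ x' _ h; exact Subtype.ext h
    · intro x hx
      rw [Finset.mem_filter] at hx
      exact ⟨⟨x, hx.2⟩, Finset.mem_univ _, rfl⟩
    · intro x _; rfl
  rw [h3]
  refine Finset.sum_congr rfl fun x _ => ?_
  rw [← Finset.sum_filter]
  symm
  refine Finset.sum_bij (fun b _ => b.1) ?_ ?_ ?_ ?_
  · intro b _
    rw [Finset.mem_filter]
    exact ⟨mem_Bl.2 b.2.1, b.2⟩
  · intro b _ b' _ h; exact Subtype.ext h
  · intro b hb
    rw [Finset.mem_filter] at hb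
    exact ⟨⟨b, hb.2⟩, Finset.mem_univ _, rfl⟩
  · intro b _; rfl


section pairs
variable [M.IsMaximal] [Fact p.Prime] [CharP (ResF M) p] [Algebra (ZMod p) (ResF M)]
    [Algebra.IsAlgebraic (ZMod p) (ResF M)] [IsAlgClosed (ResF M)]
variable {B : Set (IrrCharacter G)} {P : Subgroup G} {e : MonoidAlgebra (ResF M) G}

lemma zp_le_Cx (x : G) : Subgroup.zpowers x ≤ Cx x := by
  rw [Subgroup.zpowers_le, Subgroup.mem_centralizer_singleton_iff]

lemma Cx_le_norm (x : G) : Cx x ≤ Subgroup.normalizer ((Subgroup.zpowers x : Subgroup G) : Set G) := by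
  unfold Cx
  rw [← cent_zpowers]
  exact centralizer_le_normalizer' _

lemma isPGroup_zp {x : G} (hx : ∃ k : ℕ, orderOf x = p ^ k) : IsPGroup p (Subgroup.zpowers x) :=
  H19.BrMap2.isPGroup_zpowers hx

theorem ind_iff (hM : IsPModular p M) (hB : IsPBlock M B) {x : G} (hx : ∃ k : ℕ, orderOf x = p ^ k)
    {b : Set (IrrCharacter (Cx x))} (hb : IsPBlock M b) :
    IsInducedBlock M (Cx x) b B ↔ PairOf p ⊤ (ebar M B) (Subgroup.zpowers x) (bl M _ b) := by
  have h := BR7.induced_iff_br hM (isPGroup_zp hx) (zp_le_Cx x) (le_of_eq (cent_zpowers x))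
    (Cx_le_norm x) hb hB
  rw [h]
  constructor
  · intro h1
    refine ⟨⟨isPGroup_zp hx, le_top, ?_⟩, isBlk_ebar hB, h1⟩
    rw [CH_zp]; exact isBlk_bl hb
  · intro h1; exact h1.br

/-- the key of a subsection -/
noncomputable def key (w : Om p M B) : G × MonoidAlgebra (ResF M) G := (w.1.1, bl M (Cx w.1.1) w.2.1)

lemma key_inj : Function.Injective (key (p := p) (M := M) (B := B)) := by
  rintro ⟨⟨x, hx⟩, b⟩ ⟨⟨x', hx'⟩, b'⟩ h
  have h1 : x = x' := congrArg Prod.fst h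
  subst h1
  have h2 : bl M (Cx x) b.1 = bl M (Cx x) b'.1 := congrArg Prod.snd h
  have h3 := bl_inj b.2.1 b'.2.1 h2
  have h4 : b = b' := Subtype.ext h3
  rw [h4]

lemma key_pair (hM : IsPModular p M) (hB : IsPBlock M B) (w : Om p M B) :
    PairOf p ⊤ (ebar M B) (Subgroup.zpowers (key w).1) (key w).2 :=
  (ind_iff hM hB w.1.2 w.2.2.1).1 w.2.2

lemma exists_key (hM : IsPModular p M) (hB : IsPBlock M B) {x : G} {f : MonoidAlgebra (ResF M) G}
    (h : PairOf p ⊤ (ebar M B) (Subgroup.zpowers x) f) : ∃ w : Om p M B, key w = (x, f) := by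
  have hx : ∃ k : ℕ, orderOf x = p ^ k := by
    obtain ⟨n, hn⟩ := IsPGroup.iff_orderOf.1 h.pair.pgr ⟨x, Subgroup.mem_zpowers x⟩
    exact ⟨n, by rw [← hn, Subgroup.orderOf_mk]⟩
  have h1 := h.pair.blk
  rw [CH_zp] at h1
  obtain ⟨b, hb, rfl⟩ := exists_bl h1
  exact ⟨⟨⟨x, hx⟩, ⟨b, (ind_iff hM hB hx hb).2 h⟩⟩, rfl⟩

/-- number of conjugates under the inertial group -/
noncomputable def nT (P : Subgroup G) (e : MonoidAlgebra (ResF M) G) (u : G) : ℕ :=
  Nat.card {u' : P // ∃ t ∈ ST ⊤ P e, t * u * t⁻¹ = u'}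

lemma f_conj (hmax : IsMax p ⊤ (ebar M B) P e) {f : G → MonoidAlgebra (ResF M) G}
    (hf : ∀ u ∈ P, SLE p ⊤ (Subgroup.zpowers u) (f u) P e) {u t : G} (hu : u ∈ P)
    (ht : t ∈ ST ⊤ P e) : f (t * u * t⁻¹) = cj t (f u) := by
  have h1 := sle_cj (hf u hu) t
  rw [cs_of_mem (Subgroup.mem_top t), cs_zp, mem_normalizer.1 ht.2.1, ht.2.2] at h1
  have h2 : t * u * t⁻¹ ∈ P := (mem_normalizer_iff'.1 ht.2.1 u).1 hu
  exact SLE.unique hmax.of.pair (hf _ h2) h1

theorem fiber_card (hB : IsPBlock M B) (hmax : IsMax p ⊤ (ebar M B) P e)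
    (hab : ∀ x ∈ P, ∀ y ∈ P, x * y = y * x) {f : G → MonoidAlgebra (ResF M) G}
    (hf : ∀ u ∈ P, SLE p ⊤ (Subgroup.zpowers u) (f u) P e) (g0 : G) (u0 : P) :
    Nat.card {gu : G × P // gu.1 * gu.2 * gu.1⁻¹ = g0 * u0 * g0⁻¹ ∧
      cj gu.1 (f gu.2) = cj g0 (f u0)} = nT P e u0 * Nat.card (Cx (u0 : G)) := by
  classical
  unfold nT
  rw [← Nat.card_prod]
  have hfC : ∀ u ∈ P, f u ∈ Fx (ResF M) (Cx u) := by
    intro u hu
    have := ((hf u hu).pair_left hmax.of.pair).blk.mem.1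
    rwa [CH_zp] at this
  have hb : ebar M B ∈ Fx (ResF M) (⊤ : Subgroup G) := (isBlk_ebar hB).mem.1
  apply Nat.card_congr
  have horb : ∀ gu : G × P, gu.1 * gu.2 * gu.1⁻¹ = g0 * u0 * g0⁻¹ →
      cj gu.1 (f gu.2) = cj g0 (f u0) → ∃ t ∈ ST ⊤ P e, t * (u0 : G) * t⁻¹ = gu.2 := by
    rintro ⟨g, u⟩ h1 h2
    simp only at h1 h2 ⊢
    have h3 : (g⁻¹ * g0) * u0 * (g⁻¹ * g0)⁻¹ = u := by
      calc (g⁻¹ * g0) * u0 * (g⁻¹ * g0)⁻¹ = g⁻¹ * (g0 * u0 * g0⁻¹) * g := by group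
        _ = g⁻¹ * (g * u * g⁻¹) * g := by rw [h1]
        _ = u := by group
    have h4 : cj (g⁻¹ * g0) (f u0) = f u := by
      rw [cj_mul, ← h2, cj_inv_cj]
    obtain ⟨y, hy, hty⟩ := conj_of_nle hb hmax hab (hf u0 u0.2) (g := g⁻¹ * g0) (by
      rw [h3, h4]; exact hf u u.2)
    refine ⟨_, hty, ?_⟩
    have h5 : y * (u0 : G) * y⁻¹ = u0 := by
      rw [Subgroup.mem_centralizer_singleton_iff.1 hy]; group
    calc g⁻¹ * g0 * y * u0 * (g⁻¹ * g0 * y)⁻¹ = (g⁻¹ * g0) * (y * u0 * y⁻¹) * (g⁻¹ * g0)⁻¹ := by group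
      _ = u := by rw [h5, h3]
  choose tt ht1 ht2 using fun u' : {u' : P // ∃ t ∈ ST ⊤ P e, t * (u0 : G) * t⁻¹ = u'} => u'.2
  have hfu : ∀ u' : {u' : P // ∃ t ∈ ST ⊤ P e, t * (u0 : G) * t⁻¹ = u'},
      f u'.1 = cj (tt u') (f u0) := by
    intro u'
    rw [← f_conj hmax hf u0.2 (ht1 u'), ht2 u']
  refine ⟨fun gu => ⟨⟨gu.1.2, horb gu.1 gu.2.1 gu.2.2⟩,
      ⟨g0⁻¹ * gu.1.1 * tt ⟨gu.1.2, horb gu.1 gu.2.1 gu.2.2⟩, ?_⟩⟩,
    fun uc => ⟨(g0 * uc.2 * (tt uc.1)⁻¹, uc.1.1), ?_, ?_⟩, ?_, ?_⟩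
  · -- commutes with u0
    have h1 := gu.2.1
    have h2 := ht2 ⟨gu.1.2, horb gu.1 gu.2.1 gu.2.2⟩
    set t := tt ⟨gu.1.2, horb gu.1 gu.2.1 gu.2.2⟩ with ht
    show _ ∈ Subgroup.centralizer ({(u0 : G)} : Set G)
    rw [Subgroup.mem_centralizer_singleton_iff]
    have h3 : (g0⁻¹ * gu.1.1 * t) * u0 * (g0⁻¹ * gu.1.1 * t)⁻¹ = u0 := by
      calc (g0⁻¹ * gu.1.1 * t) * u0 * (g0⁻¹ * gu.1.1 * t)⁻¹ =
          g0⁻¹ * (gu.1.1 * (t * u0 * t⁻¹) * gu.1.1⁻¹) * g0 := by group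
        _ = g0⁻¹ * (g0 * u0 * g0⁻¹) * g0 := by rw [h2, h1]
        _ = u0 := by group
    calc g0⁻¹ * gu.1.1 * t * u0 = ((g0⁻¹ * gu.1.1 * t) * u0 * (g0⁻¹ * gu.1.1 * t)⁻¹) *
          (g0⁻¹ * gu.1.1 * t) := by group
      _ = _ := by rw [h3]
  · have h2 := ht2 uc.1
    have h3 : (uc.2 : G) * u0 * (uc.2 : G)⁻¹ = u0 := by
      rw [Subgroup.mem_centralizer_singleton_iff.1 uc.2.2]; group
    simp only
    calc g0 * uc.2 * (tt uc.1)⁻¹ * (uc.1.1 : G) * (g0 * uc.2 * (tt uc.1)⁻¹)⁻¹ =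
        g0 * uc.2 * (tt uc.1)⁻¹ * (tt uc.1 * u0 * (tt uc.1)⁻¹) * (g0 * uc.2 * (tt uc.1)⁻¹)⁻¹ := by
          rw [h2]
      _ = g0 * (uc.2 * u0 * (uc.2 : G)⁻¹) * g0⁻¹ := by group
      _ = _ := by rw [h3]
  · simp only
    rw [hfu uc.1, ← cj_mul, show g0 * (uc.2 : G) * (tt uc.1)⁻¹ * tt uc.1 = g0 * uc.2 by group, cj_mul,
      hfC u0 u0.2 _ uc.2.2]
  · rintro ⟨⟨g, u⟩, h1, h2⟩
    apply Subtype.ext
    apply Prod.ext
    · simp only
      group
    · rfl
  · rintro ⟨u', c⟩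
    apply Prod.ext
    · rfl
    · apply Subtype.ext
      simp only
      group


noncomputable instance : Fintype P := Fintype.ofFinite _

lemma nT_pos (u : G) (hu : u ∈ P) : 0 < nT P e u := by
  unfold nT
  rw [Nat.card_pos_iff]
  refine ⟨⟨⟨⟨u, hu⟩, 1, Subgroup.one_mem _, by simp⟩⟩, inferInstance⟩

/-- sums over subsections of a block with abelian defect group -/
theorem sum_Om (hM : IsPModular p M) (hB : IsPBlock M B) (hmax : IsMax p ⊤ (ebar M B) P e)
    (hab : ∀ x ∈ P, ∀ y ∈ P, x * y = y * x) {f : G → MonoidAlgebra (ResF M) G}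
    (hf : ∀ u ∈ P, SLE p ⊤ (Subgroup.zpowers u) (f u) P e)
    (F : G → MonoidAlgebra (ResF M) G → ℂ)
    (hF : ∀ g x f', F (g * x * g⁻¹) (cj g f') = F x f') :
    ∑ w : Om p M B, (Nat.card (Cx (key w).1) : ℂ) * F (key w).1 (key w).2 =
      (Nat.card G : ℂ) * ∑ u : P, F (u : G) (f u) / (nT P e (u : G) : ℂ) := by
  classical
  have hpair : ∀ gu : G × P, ∃ w : Om p M B, key w = (gu.1 * gu.2 * gu.1⁻¹, cj gu.1 (f gu.2)) := by
    intro gu
    apply exists_key hM hB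
    have h1 : PairOf p ⊤ (ebar M B) (Subgroup.zpowers (gu.2 : G)) (f gu.2) :=
      (pairOf_of_sle hmax.of.pair (hf gu.2 gu.2.2)).1 hmax.of
    have h2 := pairOf_cj h1 gu.1
    rw [cs_of_mem (Subgroup.mem_top gu.1), (isBlk_ebar hB).mem.1 gu.1 (Subgroup.mem_top _), cs_zp] at h2
    exact h2
  choose π hπ using hpair
  have hcardC : ∀ g u : G, Nat.card (Cx (g * u * g⁻¹)) = Nat.card (Cx u) := by
    intro g u
    exact H19.SylowAux.card_centralizer_conj u g
  -- surjectivity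
  have hsurj : ∀ w : Om p M B, ∃ gu : G × P, π gu = w := by
    intro w
    obtain ⟨x, _, hx⟩ := sle_max hmax (key_pair hM hB w)
    rw [cs_zp] at hx
    have hu : x * (key w).1 * x⁻¹ ∈ P := (hx.le' hmax.of.pair) (Subgroup.mem_zpowers _)
    have hfx : f (x * (key w).1 * x⁻¹) = cj x (key w).2 :=
      SLE.unique hmax.of.pair (hf _ hu) hx
    refine ⟨(x⁻¹, ⟨_, hu⟩), ?_⟩
    apply key_inj
    rw [hπ]
    apply Prod.ext
    · simp only; group
    · simp only
      rw [hfx, cj_inv_cj]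
  have hfib : ∀ w : Om p M B, ∑ gu ∈ Finset.univ.filter (fun gu : G × P => π gu = w),
      F (gu.2 : G) (f gu.2) / (nT P e (gu.2 : G) : ℂ) =
      (Nat.card (Cx (key w).1) : ℂ) * F (key w).1 (key w).2 := by
    intro w
    obtain ⟨⟨g0, u0⟩, h0⟩ := hsurj w
    have hk := hπ (g0, u0)
    rw [h0] at hk
    have hcard : ∀ gu : G × P, π gu = w → nT P e (gu.2 : G) * Nat.card (Cx (gu.2 : G)) =
        nT P e (u0 : G) * Nat.card (Cx (u0 : G)) := by
      intro gu hgu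
      rw [← fiber_card hB hmax hab hf gu.1 gu.2, ← fiber_card hB hmax hab hf g0 u0]
      have h1 := hπ gu
      rw [hgu, hk] at h1
      have h2 := congrArg Prod.fst h1
      have h3 := congrArg Prod.snd h1
      simp only at h2 h3
      rw [h2, h3]
    have hC : ∀ gu : G × P, π gu = w → Nat.card (Cx (gu.2 : G)) = Nat.card (Cx (u0 : G)) := by
      intro gu hgu
      have h1 := hπ gu
      rw [hgu, hk] at h1
      have h2 := congrArg Prod.fst h1
      simp only at h2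
      rw [← hcardC gu.1, ← h2, hcardC]
    have hn : ∀ gu : G × P, π gu = w → nT P e (gu.2 : G) = nT P e (u0 : G) := by
      intro gu hgu
      have h1 := hcard gu hgu
      rw [hC gu hgu] at h1
      exact Nat.eq_of_mul_eq_mul_right Nat.card_pos h1
    have hFF : ∀ gu : G × P, π gu = w → F (gu.2 : G) (f gu.2) = F (key w).1 (key w).2 := by
      intro gu hgu
      have h1 := hπ gu
      rw [hgu] at h1
      rw [h1]
      exact (hF gu.1 _ _).symm
    have h1 : ∀ gu ∈ Finset.univ.filter (fun gu : G × P => π gu = w),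
        F (gu.2 : G) (f gu.2) / (nT P e (gu.2 : G) : ℂ) =
          F (key w).1 (key w).2 / (nT P e (u0 : G) : ℂ) := by
      intro gu hgu
      rw [Finset.mem_filter] at hgu
      rw [hFF gu hgu.2, hn gu hgu.2]
    rw [Finset.sum_congr rfl h1, Finset.sum_const, nsmul_eq_mul]
    have h2 : (Finset.univ.filter (fun gu : G × P => π gu = w)).card =
        nT P e (u0 : G) * Nat.card (Cx (u0 : G)) := by
      rw [← fiber_card hB hmax hab hf g0 u0, Nat.card_eq_fintype_card, Fintype.card_subtype]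
      congr 1
      ext gu
      simp only [Finset.mem_filter, Finset.mem_univ, true_and]
      constructor
      · intro h
        have h3 := hπ gu
        rw [h, hk] at h3
        exact ⟨(congrArg Prod.fst h3).symm, (congrArg Prod.snd h3).symm⟩
      · intro h
        apply key_inj
        rw [hπ, hk]
        exact Prod.ext h.1 h.2
    have hn0 : (nT P e (u0 : G) : ℂ) ≠ 0 := by exact_mod_cast (nT_pos (u0 : G) u0.2).ne'
    rw [h2, hk]
    simp only
    rw [hcardC]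
    push_cast
    field_simp
  rw [← Finset.sum_congr rfl fun w _ => hfib w, Finset.sum_fiberwise, Fintype.sum_prod_type]
  simp only [Finset.sum_const, Finset.card_univ, nsmul_eq_mul]
  rw [Nat.card_eq_fintype_card]

/-- number of characters of a block with abelian defect group -/
theorem card_formula (hM : IsPModular p M) (hB : IsPBlock M B) (hmax : IsMax p ⊤ (ebar M B) P e)
    (hab : ∀ x ∈ P, ∀ y ∈ P, x * y = y * x) {f : G → MonoidAlgebra (ResF M) G}
    (hf : ∀ u ∈ P, SLE p ⊤ (Subgroup.zpowers u) (f u) P e) :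
    (Nat.card B : ℂ) = ∑ u : P, (rk p (Cx (u : G)) (f u) : ℂ) / (nT P e (u : G) : ℂ) := by
  classical
  haveI := pm_isPrime hM
  letI := Fintype.ofFinite (IrrCharacter G)
  have h1 := trace_G hM hB (fun χ => (χ : G → ℂ)) (fun x b => 1) (by
    intro χ hχ x hx y hy
    letI := Fintype.ofFinite (IrrCharacter (Cx x))
    simp_rw [one_mul]
    rw [sum_bp (tr_class (fun c hc => Subgroup.mem_centralizer_singleton_iff.1 hc)
      (H18.CharBasic.isClassFunction_of_isIrr χ.2))]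
    rfl)
  have hGc : (Nat.card G : ℂ) ≠ 0 := by exact_mod_cast Nat.card_pos.ne'
  have h2 : ∑ g : G, ∑ χ : IrrCharacter G, (if χ ∈ B then (χ : G → ℂ) g * conj ((χ : G → ℂ) g)
      else 0) = (Nat.card G : ℂ) * (Nat.card B : ℂ) := by
    rw [Finset.sum_comm]
    have h3 : ∀ χ : IrrCharacter G, ∑ g : G, (if χ ∈ B then (χ : G → ℂ) g * conj ((χ : G → ℂ) g)
      else 0) = if χ ∈ B then (Nat.card G : ℂ) else 0 := by
      intro χ
      split_ifs
      · have h4 := H18.CharOrtho.inner_irr_self χ.2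
        rw [classInner, inv_mul_eq_iff_eq_mul₀ hGc, mul_one] at h4
        exact h4
      · simp
    rw [Finset.sum_congr rfl fun χ _ => h3 χ, ← Finset.sum_filter, Finset.sum_const, nsmul_eq_mul,
      Nat.card_eq_fintype_card (α := B), ← Set.toFinset_card]
    rw [mul_comm]
    congr 2
    congr 1
    ext χ
    simp
  rw [h2] at h1
  have h5 := sum_Om hM hB hmax hab hf (fun x f' => (rk p (Cx x) f' : ℂ)) (by
    intro g x f'
    have h6 : Cx (g * x * g⁻¹) = cs g (Cx x) := by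
      unfold Cx
      rw [← CH_zp, ← CH_zp, cs_CH, cs_zp, cs_of_mem (Subgroup.mem_top g)]
    show (rk p (Cx (g * x * g⁻¹)) (cj g f') : ℂ) = (rk p (Cx x) f' : ℂ)
    rw [h6, rk_cj])
  apply mul_left_cancel₀ hGc
  rw [← h5, h1]
  refine Finset.sum_congr rfl fun w _ => ?_
  rw [one_mul]
  show _ = (Nat.card (Cx w.1.1) : ℂ) * (rk p (Cx w.1.1) (bl M (Cx w.1.1) w.2.1) : ℂ)
  rw [rk_bl w.2.2.1]

end pairs

end H80.SU9
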