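import Cfsg.Agent.Lib.H80.ML5

set_option autoImplicit false
set_option linter.unusedSectionVars false
set_option linter.unusedVariables false
set_option linter.style.haveILetI false

/-!
# Irreducible modules in characteristic `p` of groups with a cyclic trivial intersection Sylow subgroup
-/

namespace H80.TI1

open H80.GA H80.ML3 H80.ML5
open Polynomial

section alg
variable {F : Type*} [Field F] {p : ℕ} [Fact p.Prime] [CharP F p]

/-- the norm polynomial -/
lemma sum_X_pow (n : ℕ) : ∑ i ∈ Finset.range (p ^ n), (X : F[X]) ^ i = (X - 1) ^ (p ^ n - 1) := by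
  have h1 : (X - 1 : F[X]) ≠ 0 := X_sub_C_ne_zero (1 : F)
  apply mul_left_cancel₀ h1
  have h2 : (X - 1 : F[X]) * (X - 1) ^ (p ^ n - 1) = X ^ (p ^ n) - 1 := by
    rw [← pow_succ', Nat.sub_add_cancel (Nat.one_le_pow _ _ (Nat.Prime.pos Fact.out)),
      sub_pow_char_pow, one_pow]
  rw [h2, mul_comm]
  exact geom_sum_mul X (p ^ n)

lemma pow_sub_one (a : ℕ) (ha : ¬ p ∣ a) :
    ∃ t : F[X], (X ^ a - 1 : F[X]) ^ (p - 1) = (X - 1) ^ (p - 1) + (X - 1) ^ p * t := by
  set s : F[X] := ∑ i ∈ Finset.range a, X ^ i with hs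
  have h1 : (X ^ a - 1 : F[X]) = (X - 1) * s := by
    rw [mul_comm]; exact (geom_sum_mul X a).symm
  have h2 : s.eval 1 = (a : F) := by
    rw [hs, eval_finsetSum]
    simp
  have hp : p.Prime := Fact.out
  have h3 : (a : F) ^ (p - 1) = 1 := by
    have h4 : ((a : ZMod p)) ^ (p - 1) = 1 :=
      ZMod.pow_card_sub_one_eq_one (by rwa [Ne, ZMod.natCast_eq_zero_iff])
    have h5 := congrArg (ZMod.castHom (dvd_refl p) F) h4
    simpa using h5
  have h4 : (X - C 1 : F[X]) ∣ s ^ (p - 1) - 1 := by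
    rw [dvd_iff_isRoot, IsRoot.def, eval_sub, eval_pow, h2, h3, eval_one, sub_self]
  obtain ⟨t, ht⟩ := h4
  refine ⟨t, ?_⟩
  have h5 : s ^ (p - 1) = 1 + (X - 1) * t := by
    rw [← C_1, ← ht, C_1]; ring
  rw [h1, mul_pow, h5]
  have h6 : (X - 1 : F[X]) ^ p = (X - 1) ^ (p - 1) * (X - 1) := by
    rw [← pow_succ, Nat.sub_add_cancel hp.pos]
  rw [h6]
  ring

variable {E : Type*} [Ring E] [Algebra F E]

variable (F p) in
include F in
/-- traces over a cyclic `p`-group, when the generator has small nilpotency index -/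
theorem trace_div {n : ℕ} (hn : 1 ≤ n) (U W : E) (hUW : U * W = 1) (hWU : W * U = 1)
    (hν : (U - 1) ^ (p ^ n - p) = 0) (θ : E) :
    ∃ κ, ∑ i ∈ Finset.range (p ^ n), U ^ i * θ * W ^ i = (U - 1) ^ p * κ := by
  have hp : p.Prime := Fact.out
  set ν : E := U - 1 with hνd
  have hνW : Commute ν W := by
    show (U - 1) * W = W * (U - 1)
    rw [sub_mul, mul_sub, hUW, hWU, one_mul, mul_one]
  let A : Module.End F E := LinearMap.mulLeft F U ∘ₗ LinearMap.mulRight F W
  let L : Module.End F E := LinearMap.mulLeft F ν ∘ₗ LinearMap.mulRight F W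
  let R : Module.End F E := LinearMap.mulRight F (ν * -W)
  have hνW' : Commute ν (-W) := hνW.neg_right
  have hA : ∀ i, (A ^ i) θ = U ^ i * θ * W ^ i := by
    intro i
    induction i with
    | zero => simp
    | succ i ih =>
      rw [pow_succ', Module.End.mul_apply, ih]
      show U * (U ^ i * θ * W ^ i * W) = _
      rw [pow_succ', pow_succ]
      noncomm_ring
  have hAL : A - 1 = L + R := by
    ext z
    show U * (z * W) - z = ν * (z * W) + z * (ν * -W)
    rw [hνd]
    have : z * ((U - 1) * -W) = z * W - z := by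
      rw [sub_mul, mul_neg, hUW, one_mul, mul_sub, mul_neg, mul_neg, mul_one]
      abel
    rw [this]
    noncomm_ring
  have hLR : Commute L R := by
    show L * R = R * L
    ext z
    show ν * (z * (ν * -W) * W) = ν * (z * W) * (ν * -W)
    have : W * (ν * -W) = ν * -W * W := by rw [← mul_assoc, ← hνW.eq]; noncomm_ring
    calc ν * (z * (ν * -W) * W) = ν * z * (ν * -W * W) := by noncomm_ring
      _ = ν * z * (W * (ν * -W)) := by rw [this]
      _ = _ := by noncomm_ring
  have hsum : ∑ i ∈ Finset.range (p ^ n), A ^ i = (A - 1) ^ (p ^ n - 1) := by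
    have := congrArg (aeval A) (sum_X_pow (F := F) (p := p) n)
    simpa using this
  have h1 : ∑ i ∈ Finset.range (p ^ n), U ^ i * θ * W ^ i = ((A - 1) ^ (p ^ n - 1)) θ := by
    rw [← hsum, LinearMap.sum_apply]
    exact Finset.sum_congr rfl fun i _ => (hA i).symm
  have hRj : ∀ j, ∃ z : E, (R ^ j) θ = θ * ν ^ j * z := by
    intro j
    refine ⟨(-W) ^ j, ?_⟩
    have h3 : (R ^ j) θ = θ * (ν * -W) ^ j := by
      induction j with
      | zero => simp
      | succ j ih =>
        rw [pow_succ', Module.End.mul_apply, ih]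
        show θ * (ν * -W) ^ j * (ν * -W) = _
        rw [mul_assoc, ← pow_succ]
    rw [h3, hνW'.mul_pow, mul_assoc]
  have hLm : ∀ (m : ℕ) (z : E), ∃ z', (L ^ m) z = ν ^ m * z' := by
    intro m z
    induction m with
    | zero => exact ⟨z, by simp⟩
    | succ m ih =>
      obtain ⟨z', hz'⟩ := ih
      refine ⟨z' * W, ?_⟩
      rw [pow_succ', Module.End.mul_apply, hz']
      show ν * (ν ^ m * z' * W) = _
      rw [pow_succ']
      noncomm_ring
  rw [h1, hAL, hLR.add_pow, LinearMap.sum_apply]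
  have hterm : ∀ m ∈ Finset.range (p ^ n - 1 + 1), ∃ κ,
      (L ^ m * R ^ (p ^ n - 1 - m) * ((p ^ n - 1).choose m : Module.End F E)) θ = ν ^ p * κ := by
    intro m hm
    have hcomm : L ^ m * R ^ (p ^ n - 1 - m) * ((p ^ n - 1).choose m : Module.End F E) =
        ((p ^ n - 1).choose m : Module.End F E) * (L ^ m * R ^ (p ^ n - 1 - m)) :=
      (Nat.cast_commute _ _).symm.eq
    rw [hcomm, Module.End.mul_apply, Module.End.mul_apply]
    have hcast : ∀ (c : ℕ) (z : E), (c : Module.End F E) z = (c : E) * z := by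
      intro c z
      rw [← nsmul_eq_mul, ← nsmul_one, LinearMap.smul_apply]
      rfl
    rw [hcast]
    by_cases hmp : p ≤ m
    · obtain ⟨z', hz'⟩ := hLm m ((R ^ (p ^ n - 1 - m)) θ)
      obtain ⟨r, rfl⟩ := Nat.exists_eq_add_of_le hmp
      refine ⟨((p ^ n - 1).choose (p + r) : E) * (ν ^ r * z'), ?_⟩
      have hc := (Nat.cast_commute ((p ^ n - 1).choose (p + r)) (ν ^ p)).eq
      rw [hz', pow_add, mul_assoc (ν ^ p), ← mul_assoc, hc, mul_assoc]
    · obtain ⟨z, hz⟩ := hRj (p ^ n - 1 - m)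
      have h3 : p ^ n - p ≤ p ^ n - 1 - m := by omega
      obtain ⟨r, hr⟩ := Nat.exists_eq_add_of_le h3
      refine ⟨0, ?_⟩
      rw [hz, hr, pow_add, hν, zero_mul, mul_zero, zero_mul, map_zero, mul_zero, mul_zero]
  choose! κ hκ using hterm
  exact ⟨∑ m ∈ Finset.range (p ^ n - 1 + 1), κ m, by
    rw [Finset.mul_sum]
    exact Finset.sum_congr rfl fun m hm => hκ m hm⟩

end alg

section main
variable {F G V : Type*} [Field F] [Group G] [Finite G] [AddCommGroup V] [Module F V]
  [FiniteDimensional F V] {p : ℕ} [Fact p.Prime] [CharP F p]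

lemma nil_pow_finrank {f : Module.End F V} (hf : IsNilpotent f) :
    f ^ Module.finrank F V = 0 := by
  have h1 := (LinearMap.charpoly_eq_X_pow_iff f).2 (fun m => ?_)
  · have h2 := LinearMap.aeval_self_charpoly f
    rw [h1] at h2
    simpa using h2
  · obtain ⟨n, hn⟩ := hf
    exact ⟨n, by rw [hn]; rfl⟩

/-- conjugation -/
noncomputable def cR (ρ : Representation F G V) (g : G) : Module.End F V →+ Module.End F V where
  toFun θ := ρ g * θ * ρ g⁻¹
  map_zero' := by rw [mul_zero, zero_mul]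
  map_add' θ η := by rw [mul_add, add_mul]

lemma cR_apply (ρ : Representation F G V) (g : G) (θ : Module.End F V) :
    cR ρ g θ = ρ g * θ * ρ g⁻¹ := rfl

lemma cR_mul (ρ : Representation F G V) (g h : G) (θ : Module.End F V) :
    cR ρ (g * h) θ = cR ρ g (cR ρ h θ) := by
  simp only [cR_apply, map_mul, mul_inv_rev, mul_assoc]

lemma cR_pow (ρ : Representation F G V) (g : G) (θ : Module.End F V) (m : ℕ) :
    cR ρ g (θ ^ m) = (cR ρ g θ) ^ m := by
  induction m with
  | zero => rw [pow_zero, pow_zero, cR_apply, mul_one, ← map_mul, mul_inv_cancel, map_one]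
  | succ m ih =>
    rw [pow_succ, pow_succ, ← ih]
    simp only [cR_apply]
    have : ρ g⁻¹ * ρ g = 1 := by rw [← map_mul, inv_mul_cancel, map_one]
    calc ρ g * (θ ^ m * θ) * ρ g⁻¹ = ρ g * θ ^ m * 1 * θ * ρ g⁻¹ := by
          simp only [mul_assoc, one_mul]
      _ = ρ g * θ ^ m * (ρ g⁻¹ * ρ g) * θ * ρ g⁻¹ := by rw [this]
      _ = _ := by simp only [mul_assoc]

theorem csum_comm (ρ : Representation F G V) {P : Subgroup G} {θ : Module.End F V}
    (hinv : Inv P (fun g => cR ρ g θ)) (g : G) :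
    cR ρ g (csum P ⊤ (fun x => cR ρ x θ)) = csum P ⊤ (fun x => cR ρ x θ) := by
  classical
  have := Fintype.ofFinite (G ⧸ P)
  rw [csum_eq, map_sum]
  refine Finset.sum_bij (fun y _ => g • y) (fun y _ => by simp) (fun y _ z _ h => smul_left_cancel g h)
    (fun y _ => ⟨g⁻¹ • y, by simp, smul_inv_smul g y⟩) ?_
  intro y _
  have : g • y = (QuotientGroup.mk (g * y.out) : G ⧸ P) := by
    conv_lhs => rw [← QuotientGroup.out_eq' y]
    rfl
  rw [this, ← cR_mul]
  exact (hinv.out _).symm

/-- the part outside of the normalizer -/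
theorem free_part (ρ : Representation F G V) {P N : Subgroup G} (hPN : P ≤ N)
    (hTI : ∀ g, g ∉ N → ∀ x ∈ P, g⁻¹ * x * g ∈ P → x = 1) {θ : Module.End F V}
    (hinv : Inv P (fun g => cR ρ g θ)) [Fintype P] :
    ∃ h, csum P ⊤ (fun x => cR ρ x θ) = csum P N (fun x => cR ρ x θ) + ∑ x : P, cR ρ (x : G) h := by
  classical
  have := Fintype.ofFinite (G ⧸ P)
  have hmk : ∀ (n : G) (y : G ⧸ P), ∃ d ∈ P, (n • y).out = n * y.out * d := by
    intro n y
    have h3 : n • y = (QuotientGroup.mk (n * y.out) : G ⧸ P) := by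
      conv_lhs => rw [← QuotientGroup.out_eq' y]
      rfl
    obtain ⟨d, hd⟩ := QuotientGroup.mk_out_eq_mul P (n * y.out)
    exact ⟨d, d.2, by rw [h3, hd]⟩
  let Ω := {y : G ⧸ P // y.out ∉ N}
  have hmem : ∀ (n : P) (y : G ⧸ P), y.out ∉ N → ((n : G) • y).out ∉ N := by
    intro n y hy hcon
    obtain ⟨d, hd, e⟩ := hmk n y
    rw [e, Subgroup.mul_mem_cancel_right _ (hPN hd), Subgroup.mul_mem_cancel_left _ (hPN n.2)] at hcon
    exact hy hcon
  let act : MulAction P Ω :=
    { smul := fun n y => ⟨(n : G) • y.1, hmem n y.1 y.2⟩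
      one_smul := fun y => Subtype.ext (one_smul G _)
      mul_smul := fun m n y => Subtype.ext (mul_smul (m : G) (n : G) y.1) }
  have hΩ : ∀ (n : P) (y : Ω), ((n • y : Ω) : G ⧸ P) = (n : G) • y.1 := fun n y => rfl
  have h1 := free_sum (N := P) (Ω := Ω) (fun x => cR ρ (x : G)) (fun y => cR ρ y.1.out θ) ?_ ?_
  · obtain ⟨h, hh⟩ := h1
    refine ⟨h, ?_⟩
    rw [← hh, csum_eq, csum_eq]
    have h2 : Finset.univ.filter (fun y : G ⧸ P => y.out ∈ (⊤ : Subgroup G)) = Finset.univ := by
      ext y; simp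
    rw [h2, ← Finset.sum_filter_add_sum_filter_not Finset.univ (fun y : G ⧸ P => y.out ∈ N)]
    congr 1
    rw [Finset.sum_subtype (Finset.univ.filter (fun y : G ⧸ P => ¬ y.out ∈ N))
      (p := fun y => y.out ∉ N) (fun y => by simp)]
  · intro g y
    obtain ⟨d, hd, e⟩ := hmk g y.1
    show cR ρ ((g : G) • y.1).out θ = _
    rw [e]
    exact (hinv (g * y.1.out) d hd).trans (cR_mul ρ _ _ _)
  · intro g y hg
    obtain ⟨d, hd, e⟩ := hmk g y.1
    have h3 : (g : G) • y.1 = y.1 := by rw [← hΩ, hg]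
    rw [h3] at e
    apply Subtype.ext
    refine hTI _ y.2 g g.2 ?_
    have h4 : (y.1.out)⁻¹ * (g : G) * y.1.out = d⁻¹ := by
      have h5 : (g : G) = y.1.out * d⁻¹ * (y.1.out)⁻¹ := by
        rw [eq_mul_inv_iff_mul_eq, eq_mul_inv_iff_mul_eq, ← e]
      rw [h5]; group
    rw [h4]
    exact inv_mem hd

theorem nu_ne_zero (ρ : Representation F G V) (hirr : ρ.IsIrreducible)
    (hfaith : Function.Injective ρ) {u : G} {N : Subgroup G}
    (hPN : Subgroup.zpowers u ≤ N) (hN : ∀ g ∈ N, g * u * g⁻¹ ∈ Subgroup.zpowers u)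
    (hTI : ∀ g, g ∉ N → ∀ x ∈ Subgroup.zpowers u, g⁻¹ * x * g ∈ Subgroup.zpowers u → x = 1)
    (hidx : ¬ p ∣ (Subgroup.zpowers u).relIndex N)
    {n : ℕ} (hn : 2 ≤ n) (hu : orderOf u = p ^ n) : (ρ u - 1) ^ (p ^ n - p) ≠ 0 := by
  classical
  intro hν
  have hp : p.Prime := Fact.out
  set P := Subgroup.zpowers u with hP
  set ν : Module.End F V := ρ u - 1 with hνd
  have := Fintype.ofFinite P
  have hnilq : ν ^ (p ^ n) = 0 := by
    have h1 : (p ^ n) = (p ^ n - p) + p :=
      (Nat.sub_add_cancel (Nat.le_self_pow (by omega) p)).symm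
    rw [h1, pow_add, hν, zero_mul]
  have hUW : ρ u * ρ u⁻¹ = 1 := by rw [← map_mul, mul_inv_cancel, map_one]
  have hWU : ρ u⁻¹ * ρ u = 1 := by rw [← map_mul, inv_mul_cancel, map_one]
  have hcR : ∀ (g : G) (m : ℕ), cR ρ g (ν ^ m) = (ρ (g * u * g⁻¹) - 1) ^ m := by
    intro g m
    rw [cR_pow]
    congr 1
    rw [cR_apply, hνd, mul_sub, sub_mul, mul_one, ← map_mul, ← map_mul, ← map_mul,
      mul_inv_cancel, map_one]
  have hinv : Inv P (fun g => cR ρ g (ν ^ (p - 1))) := by
    intro g d hd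
    show cR ρ (g * d) _ = cR ρ g _
    rw [cR_mul, hcR d]
    congr 4
    obtain ⟨i, rfl⟩ := Subgroup.mem_zpowers_iff.1 hd
    group
  obtain ⟨h, hh⟩ := free_part ρ hPN hTI hinv
  -- the free part
  have hfree : ∃ κ, ∑ x : P, cR ρ (x : G) h = ν ^ p * κ := by
    obtain ⟨κ, hκ⟩ := trace_div F p (n := n) (by omega) (ρ u) (ρ u⁻¹) hUW hWU hν h
    refine ⟨κ, ?_⟩
    rw [← hκ]
    symm
    refine Finset.sum_bij (fun i _ => (⟨u ^ i, Subgroup.npow_mem_zpowers u i⟩ : P)) (fun _ _ => Finset.mem_univ _)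
      ?_ ?_ ?_
    · intro i hi j hj hij
      have h1 : u ^ i = u ^ j := congrArg Subtype.val hij
      rw [pow_inj_mod, hu, Nat.mod_eq_of_lt (Finset.mem_range.1 hi),
        Nat.mod_eq_of_lt (Finset.mem_range.1 hj)] at h1
      exact h1
    · intro x _
      obtain ⟨i, hi, hx⟩ : ∃ i < p ^ n, u ^ i = (x : G) := by
        have := (mem_zpowers_iff_mem_range_orderOf (x := u) (y := (x : G))).1 x.2
        simpa [hu] using this
      exact ⟨i, Finset.mem_range.2 hi, Subtype.ext hx⟩
    · intro i _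
      rw [cR_apply]
      show _ = ρ (u ^ i) * h * ρ (u ^ i)⁻¹
      rw [← inv_pow, map_pow, map_pow]
  obtain ⟨κ, hκ⟩ := hfree
  -- the normalizer part
  have hloc : ∀ g ∈ N, ∃ t : Module.End F V, cR ρ g (ν ^ (p - 1)) = ν ^ (p - 1) + ν ^ p * t := by
    intro g hg
    rw [hcR]
    obtain ⟨a, ha1, ha⟩ : ∃ i < p ^ n, u ^ i = g * u * g⁻¹ := by
      have := (mem_zpowers_iff_mem_range_orderOf (x := u) (y := g * u * g⁻¹)).1 (hN g hg)
      simpa [hu] using this
    have hpa : ¬ p ∣ a := by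
      rintro ⟨b, rfl⟩
      have h1 : orderOf (u ^ (p * b)) = orderOf u := by
        rw [ha]
        exact MulEquiv.orderOf_eq (MulAut.conj g) u
      have h2 : (u ^ (p * b)) ^ (p ^ (n - 1)) = 1 := by
        rw [← pow_mul, show p * b * p ^ (n - 1) = p ^ n * b by
          rw [mul_right_comm, ← pow_succ', Nat.sub_add_cancel (by omega)], pow_mul, ← hu,
          pow_orderOf_eq_one, one_pow]
      have h3 := orderOf_dvd_of_pow_eq_one h2
      rw [h1, hu] at h3
      have h4 := (Nat.pow_dvd_pow_iff_le_right hp.one_lt).1 h3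
      omega
    obtain ⟨t, ht⟩ := pow_sub_one (F := F) a hpa
    refine ⟨aeval (ρ u) t, ?_⟩
    have h1 := congrArg (aeval (ρ u)) ht
    simp only [map_pow, map_sub, aeval_X, map_one, map_add, map_mul] at h1
    rw [← ha, map_pow, h1]
  choose! t ht using hloc
  obtain ⟨κ', hS⟩ : ∃ κ', csum P ⊤ (fun x => cR ρ x (ν ^ (p - 1))) =
      (P.relIndex N) • ν ^ (p - 1) + ν ^ p * κ' := by
    refine ⟨csum P N t + κ, ?_⟩
    rw [hh, hκ, csum_congr ht, csum_add, csum_const hPN]
    have := map_csum P N t (AddMonoidHom.mulLeft (ν ^ p))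
    rw [AddMonoidHom.coe_mulLeft] at this
    rw [← this, mul_add, add_assoc]
  set S := csum P ⊤ (fun x => cR ρ x (ν ^ (p - 1))) with hSd
  have hSc : ∀ g v, S (ρ g v) = ρ g (S v) := by
    intro g v
    have h1 := csum_comm ρ hinv g
    have h2 : ρ g * S = S * ρ g := by
      have h3 : ρ g * S * ρ g⁻¹ * ρ g = S * ρ g := by rw [← cR_apply, h1]
      rwa [mul_assoc, ← map_mul, inv_mul_cancel, map_one, mul_one] at h3
    exact (congrArg (fun φ : Module.End F V => φ v) h2).symm
  have hnt : Nontrivial V := by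
    by_contra hcon
    rw [not_nontrivial_iff_subsingleton] at hcon
    have : (⊥ : Subrepresentation ρ) ≠ ⊤ := bot_ne_top
    apply this
    ext v
    have : v = 0 := Subsingleton.elim _ _
    subst this
    constructor
    · intro _; trivial
    · intro _; exact zero_mem _
  have hnu0 : ν ^ (p - 1) = 0 := by
    have hSz : S = 0 := by
      let f : Representation.IntertwiningMap ρ ρ := ⟨S, fun g => by ext v; exact hSc g v⟩
      rcases Representation.IsIrreducible.bijective_or_eq_zero f with hb | h0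
      · exfalso
        have hsurj : Function.Surjective ν := by
          intro v
          obtain ⟨w, hw⟩ := hb.2 v
          have h1 : S w = v := hw
          obtain ⟨r, hr⟩ : ∃ r, p = r + 2 := ⟨p - 2, by have := hp.two_le; omega⟩
          have h2 : S = ν * ((P.relIndex N) • ν ^ (p - 2) + ν ^ (p - 1) * κ') := by
            rw [hS, mul_add, ← mul_assoc, ← pow_succ', mul_smul_comm, ← pow_succ', hr]
            rfl
          rw [h2] at h1
          exact ⟨_, h1⟩
        have h3 : ∀ m, Function.Surjective (ν ^ m : Module.End F V) := by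
          intro m
          induction m with
          | zero => exact fun v => ⟨v, rfl⟩
          | succ m ih =>
            rw [pow_succ]
            exact ih.comp hsurj
        obtain ⟨v, hv⟩ := exists_ne (0 : V)
        obtain ⟨w, hw⟩ := h3 (p ^ n) v
        rw [hnilq] at hw
        exact hv hw.symm
      · have := congrArg Representation.IntertwiningMap.toLinearMap h0
        exact this
    have hc : ((P.relIndex N : ℕ) : F) ≠ 0 := by
      rw [Ne, CharP.cast_eq_zero_iff F p]
      exact hidx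
    have h1 : ν ^ (p - 1) = ν * ν ^ (p - 1) * ((-((P.relIndex N : ℕ) : F)⁻¹) • κ') := by
      have h2 : (P.relIndex N) • ν ^ (p - 1) = - (ν ^ p * κ') :=
        eq_neg_of_add_eq_zero_left (by rw [← hS, hSz])
      rw [← Nat.cast_smul_eq_nsmul F] at h2
      rw [← pow_succ', Nat.sub_add_cancel hp.pos, mul_smul_comm, neg_smul, ← smul_neg, ← h2,
        smul_smul, inv_mul_cancel₀ hc, one_smul]
    set μ := (-((P.relIndex N : ℕ) : F)⁻¹) • κ' with hμ
    have h2 : ∀ j, ν ^ (p - 1) = ν ^ j * ν ^ (p - 1) * μ ^ j := by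
      intro j
      induction j with
      | zero => simp
      | succ j ih =>
        calc ν ^ (p - 1) = ν ^ j * ν ^ (p - 1) * μ ^ j := ih
          _ = ν ^ j * (ν * ν ^ (p - 1) * μ) * μ ^ j := by rw [← h1]
          _ = _ := by rw [pow_succ ν, pow_succ' μ]; simp only [mul_assoc]
    rw [h2 (p ^ n), hnilq, zero_mul, zero_mul]
  have hup : ρ (u ^ p) = ρ 1 := by
    have h1 : (ρ u - 1) ^ p = 0 := by
      rw [← hνd, ← Nat.sub_add_cancel hp.pos, pow_succ, hnu0, zero_mul]
    have h2 : (ρ u - 1) ^ p = ρ u ^ p - 1 := by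
      have h3 := congrArg (aeval (ρ u)) (sub_pow_char_pow (R := F[X]) (X : F[X]) 1 (p := p) (n := 1))
      simpa using h3
    rw [map_pow, map_one]
    rw [h2] at h1
    exact sub_eq_zero.1 h1
  have h1 := hfaith hup
  have h2 := orderOf_dvd_of_pow_eq_one h1
  rw [hu] at h2
  have h3 : p ^ n ∣ p ^ 1 := by rw [pow_one]; exact h2
  have h4 := (Nat.pow_dvd_pow_iff_le_right hp.one_lt).1 h3
  omega

theorem main (ρ : Representation F G V) (hirr : ρ.IsIrreducible)
    (hfaith : Function.Injective ρ) (P : Sylow p G) (hcyc : IsCyclic P) {n : ℕ} (hn : 2 ≤ n)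
    (hPn : Nat.card P = p ^ n)
    (hTI : ∀ Q : Sylow p G, Q ≠ P → (P : Subgroup G) ⊓ (Q : Subgroup G) = ⊥) :
    p ^ n - (p - 1) ≤ Module.finrank F V := by
  have hp : p.Prime := Fact.out
  obtain ⟨u, hu⟩ := (Subgroup.isCyclic_iff_exists_zpowers_eq_top (P : Subgroup G)).1 hcyc
  have hou : orderOf u = p ^ n := by
    rw [← Nat.card_zpowers, hu]; exact hPn
  have hmain : (ρ u - 1) ^ (p ^ n - p) ≠ 0 := by
    refine nu_ne_zero (p := p) ρ hirr hfaith (N := Subgroup.normalizer ((P : Subgroup G) : Set G)) ?_ ?_ ?_ ?_ hn hou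
    · rw [hu]; exact Subgroup.le_normalizer
    · intro g hg
      rw [hu]
      exact (Subgroup.mem_normalizer_iff.1 hg u).1 (by rw [← hu]; exact Subgroup.mem_zpowers u)
    · intro g hg x hx hgx
      rw [hu] at hx hgx
      have h1 : g • P ≠ P := by
        intro hcon
        apply hg
        exact Sylow.smul_eq_iff_mem_normalizer.1 hcon
      have h2 := hTI (g • P) h1
      have h3 : x ∈ (P : Subgroup G) ⊓ ((g • P : Sylow p G) : Subgroup G) := by
        refine ⟨hx, ?_⟩
        have : x = g * (g⁻¹ * x * g) * g⁻¹ := by group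
        rw [this]
        exact Subgroup.smul_mem_pointwise_smul _ (MulAut.conj g) _ hgx
      rw [h2] at h3
      exact Subgroup.mem_bot.1 h3
    · rw [hu]
      intro hdvd
      have h1 : (P : Subgroup G).relIndex (Subgroup.normalizer ((P : Subgroup G) : Set G)) ∣
        (P : Subgroup G).index := Subgroup.relIndex_dvd_index_of_le Subgroup.le_normalizer
      exact P.not_dvd_index (hdvd.trans h1)
  by_contra hcon
  push Not at hcon
  apply hmain
  have hnil : IsNilpotent (ρ u - 1) := by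
    refine ⟨p ^ n, ?_⟩
    have h2 : (ρ u - 1) ^ (p ^ n) = ρ u ^ (p ^ n) - 1 := by
      have h3 := congrArg (aeval (ρ u)) (sub_pow_char_pow (R := F[X]) (X : F[X]) 1 (p := p) (n := n))
      simpa using h3
    rw [h2, ← map_pow, ← hou, pow_orderOf_eq_one, map_one, sub_self]
  have h1 := nil_pow_finrank hnil
  have h2 : Module.finrank F V ≤ p ^ n - p := by
    have : p ≤ p ^ n := Nat.le_self_pow (by omega) p
    have := hp.one_lt
    omega
  exact pow_eq_zero_of_le h2 h1

end main

end H80.TI1
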